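import Cfsg.Agent.C11.Defs

set_option autoImplicit false
open Matrix

namespace Cfsg.Agent.C11
namespace Dg

variable {F : Type*} [Field F] {ζ : F} {G : Subgroup (GL (Fin 11) F)}

theorem conjM (h : Ctx ζ G) {f : Fin 11 → F} (hf : In G (diagonal f)) :
    In G (diagonal fun i => f (2 * i)) := by
  obtain ⟨M', h1, -, h3⟩ := h.m.exists_inv
  have e : diagonal f * mM F = mM F * diagonal fun i => f (2 * i) := by
    ext i j
    simp only [diagonal_mul, mul_diagonal, mM, of_apply]
    split_ifs with h
    · rw [h, mul_comm]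
    · simp
  have := (h1.mul hf).mul h.m
  rwa [mul_assoc, e, ← mul_assoc, h3, one_mul] at this

theorem conjB (h : Ctx ζ G) {f : Fin 11 → F} (hf : In G (diagonal f)) :
    In G (diagonal fun i => f (i + 1)) := by
  obtain ⟨M', h1, -, h3⟩ := h.b.exists_inv
  have e : diagonal f * mB F = mB F * diagonal fun i => f (i + 1) := by
    ext i j
    simp only [diagonal_mul, mul_diagonal, mB, of_apply]
    split_ifs with h
    · rw [h, mul_comm]
    · simp
  have := (h1.mul hf).mul h.b
  rwa [mul_assoc, e, ← mul_assoc, h3, one_mul] at this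

theorem shift (h : Ctx ζ G) {f : Fin 11 → F} (hf : In G (diagonal f)) (j : Fin 11) :
    In G (diagonal fun i => f (i + j)) := by
  have key : ∀ n : ℕ, In G (diagonal fun i => f (i + n • (1 : Fin 11))) := by
    intro n
    induction n with
    | zero => simpa using hf
    | succ n ih =>
      have := conjB h ih
      simpa only [succ_nsmul', add_assoc] using this
  have e : j = j.val • (1 : Fin 11) := by revert j; decide
  rw [e]
  exact key _

theorem ne_zero {f : Fin 11 → F} (hf : In G (diagonal f)) (i : Fin 11) : f i ≠ 0 := by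
  obtain ⟨M', -, h2, -⟩ := hf.exists_inv
  intro e
  have := congrFun (congrFun h2 i) i
  simp [diagonal_mul, e] at this

theorem conjMn (h : Ctx ζ G) {f : Fin 11 → F} (hf : In G (diagonal f)) (n : ℕ) :
    In G (diagonal fun i => f (2 ^ n * i)) := by
  induction n with
  | zero => simpa using hf
  | succ n ih => simpa only [pow_succ, mul_assoc] using conjM h ih

theorem prodM (h : Ctx ζ G) {f : Fin 11 → F} (hf : In G (diagonal f)) (n : ℕ) :
    In G (diagonal fun i => ∏ k ∈ Finset.range n, f (2 ^ k * i)) := by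
  induction n with
  | zero => simpa using (In.one : In G 1)
  | succ n ih =>
    have := ih.mul (conjMn h hf n)
    simpa only [diagonal_mul_diagonal, Finset.prod_range_succ] using this

theorem key (h : Ctx ζ G) (hh : ∀ μ : F, In G (mH μ) → μ = 1) {f : Fin 11 → F}
    (hf : In G (diagonal f)) : f 0 ^ 11 = ∏ i, f i := by
  set P : F := ∏ j ∈ Finset.univ.erase (0 : Fin 11), f j with hPd
  have hP : P ≠ 0 := Finset.prod_ne_zero_iff.2 fun j _ => ne_zero hf j
  have h6 := h.smul (prodM h hf 10) (inv_ne_zero hP)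
  have im : ∀ i : Fin 11, i ≠ 0 →
      (Finset.range 10).image (fun k : ℕ => 2 ^ k * i) = Finset.univ.erase 0 := by decide
  have inj : ∀ i : Fin 11, i ≠ 0 → ∀ k ∈ Finset.range 10, ∀ k' ∈ Finset.range 10,
      2 ^ k * i = 2 ^ k' * i → k = k' := by decide
  have e : P⁻¹ • (diagonal fun i : Fin 11 => ∏ k ∈ Finset.range 10, f (2 ^ k * i)) =
      mH (f 0 ^ 10 / P) := by
    simp only [mH, ← diagonal_smul]
    congr 1
    funext i
    simp only [Pi.smul_apply, smul_eq_mul]
    split_ifs with hi
    · subst hi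
      simp [div_eq_inv_mul]
    · rw [hPd, ← im i hi, Finset.prod_image (fun k hk k' hk' => inj i hi k hk k' hk'),
        inv_mul_cancel₀]
      exact Finset.prod_ne_zero_iff.2 fun j _ => ne_zero hf _
  rw [e] at h6
  have h7 := hh _ h6
  rw [div_eq_one_iff_eq hP] at h7
  rw [← Finset.mul_prod_erase _ _ (Finset.mem_univ (0 : Fin 11)), pow_succ', h7]

end Dg

variable {F : Type*} [Field F] [Fintype F] {ζ : F} {G : Subgroup (GL (Fin 11) F)}

omit [Fintype F] in
theorem dg (h : Ctx ζ G) (hh : ∀ μ : F, In G (mH μ) → μ = 1) : DG G := by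
  intro f hf
  refine ⟨∏ i, f i, fun j => ?_⟩
  have := Dg.key h hh (Dg.shift h hf j)
  rw [zero_add] at this
  rw [this]
  exact Equiv.prod_comp (Equiv.addRight j) f

end Cfsg.Agent.C11
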