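import Cfsg.Agent.C11.Defs
import Cfsg.Agent.H6.Pg2

set_option autoImplicit false
open Matrix OnePoint
open scoped MatrixGroups

namespace Cfsg.Agent.C11
namespace Gam

open H6.Pg

variable {F : Type*} [Field F] {ζ : F} {G : Subgroup (GL (Fin 11) F)}

/-- block diagonal -/
def BD (y : Mt F) : Prop := ∀ i j : Fin 11, j ≠ i → j ≠ -i → y i j = 0

/-- the block on `e_i, e_{-i}` -/
def bl (i : Fin 11) (y : Mt F) : Matrix (Fin 2) (Fin 2) F :=
  !![y i i, y i (-i); y (-i) i, y (-i) (-i)]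

theorem ne_neg {i : Fin 11} (hi : i ≠ 0) : -i ≠ i := by
  revert i; decide

theorem BD.mul_apply {y : Mt F} (h : BD y) (y' : Mt F) {i : Fin 11} (hi : i ≠ 0) (j : Fin 11) :
    (y * y') i j = y i i * y' i j + y i (-i) * y' (-i) j := by
  rw [Matrix.mul_apply, Finset.sum_eq_add i (-i) (ne_neg hi).symm]
  · intro c _ hc
    rw [h i c hc.1 hc.2, zero_mul]
  · simp
  · simp

theorem BD.mul_zero {y : Mt F} (h : BD y) (y' : Mt F) (j : Fin 11) :
    (y * y') 0 j = y 0 0 * y' 0 j := by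
  rw [Matrix.mul_apply, Finset.sum_eq_single 0]
  · intro c _ hc
    rw [h 0 c hc (by simpa using hc), zero_mul]
  · simp

theorem BD.mul {y y' : Mt F} (h : BD y) (h' : BD y') : BD (y * y') := by
  intro i j h1 h2
  by_cases hi : i = 0
  · subst hi
    rw [h.mul_zero, h' 0 j h1 h2, MulZeroClass.mul_zero]
  · rw [h.mul_apply y' hi, h' i j h1 h2, h' (-i) j h2 (by simpa using h1)]
    simp

theorem bl_mul {y : Mt F} (h : BD y) (y' : Mt F) {i : Fin 11} (hi : i ≠ 0) :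
    bl i (y * y') = bl i y * bl i y' := by
  have hi' : -i ≠ 0 := by simpa using hi
  unfold bl
  rw [Matrix.mul_fin_two, h.mul_apply y' hi, h.mul_apply y' hi, h.mul_apply y' hi',
    h.mul_apply y' hi', neg_neg, add_comm (y (-i) (-i) * y' (-i) i),
    add_comm (y (-i) (-i) * y' (-i) (-i))]

theorem bl_one {i : Fin 11} (hi : i ≠ 0) : bl i (1 : Mt F) = 1 := by
  have h1 := ne_neg hi
  ext r c
  fin_cases r <;> fin_cases c <;> simp [bl, Matrix.one_apply, h1, h1.symm]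

theorem BD.of_comm (hζ : IsPrimitiveRoot ζ 11) {y : Mt F} (h : y * mD ζ = mD ζ * y) : BD y := by
  intro i j h1 h2
  have e := congrFun (congrFun h i) j
  simp only [mD, mul_diagonal, diagonal_mul] at e
  by_contra h0
  have e2 : ζ ^ ((j : ℕ) ^ 2) = ζ ^ ((i : ℕ) ^ 2) := by
    rw [mul_comm] at e
    exact mul_right_cancel₀ h0 e
  have e3 : (j : ℕ) ^ 2 % 11 = (i : ℕ) ^ 2 % 11 := by
    refine hζ.pow_inj (Nat.mod_lt _ (by norm_num)) (Nat.mod_lt _ (by norm_num)) ?_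
    rw [← pow_eq_pow_mod _ hζ.pow_eq_one, ← pow_eq_pow_mod _ hζ.pow_eq_one, e2]
  clear e e2 h0
  revert i j
  decide

theorem BD.diag (f : Fin 11 → F) : BD (diagonal f) := fun _ _ h _ => diagonal_apply_ne _ h.symm

/-- the special part of the centraliser -/
structure S1 (G : Subgroup (GL (Fin 11) F)) (y : Mt F) : Prop where
  mem : In G y
  bd : BD y
  z : y 0 0 = 1
  det : ∀ i : Fin 11, i ≠ 0 → (bl i y).det = 1

theorem S1.one : S1 G (1 : Mt F) :=
  ⟨In.one, diagonal_one (n := Fin 11) (α := F) ▸ BD.diag _, by simp, fun i hi => by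
    rw [bl_one hi, det_one]⟩

theorem S1.mul {y y' : Mt F} (h : S1 G y) (h' : S1 G y') : S1 G (y * y') :=
  ⟨h.mem.mul h'.mem, h.bd.mul h'.bd, by rw [h.bd.mul_zero, h.z, h'.z, one_mul], fun i hi => by
    rw [bl_mul h.bd _ hi, det_mul, h.det i hi, h'.det i hi, one_mul]⟩

theorem S1.pow {y : Mt F} (h : S1 G y) (n : ℕ) : S1 G (y ^ n) := by
  induction n with
  | zero => simpa using S1.one
  | succ n ih => rw [pow_succ]; exact ih.mul h

theorem bl_pow {y : Mt F} (h : S1 G y) {i : Fin 11} (hi : i ≠ 0) (n : ℕ) :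
    bl i (y ^ n) = bl i y ^ n := by
  induction n with
  | zero => simpa using bl_one hi
  | succ n ih => rw [pow_succ, bl_mul (h.pow n).bd _ hi, ih, pow_succ]

theorem S1.conj {y g g' : Mt F} (h : S1 G y) (hg : In G g) (hg' : In G g') (b : BD g) (b' : BD g')
    (e : g * g' = 1) : S1 G (g * y * g') := by
  refine ⟨(hg.mul h.mem).mul hg', (b.mul h.bd).mul b', ?_, fun i hi => ?_⟩
  · have e1 := b.mul_zero g' 0
    rw [e, Matrix.one_apply_eq] at e1
    rw [(b.mul h.bd).mul_zero, b.mul_zero, h.z, mul_one, ← e1]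
  · have e1 := congrArg Matrix.det (bl_mul b g' hi)
    rw [e, bl_one hi, det_one, det_mul] at e1
    rw [bl_mul (b.mul h.bd) _ hi, bl_mul b _ hi, det_mul, det_mul, h.det i hi, mul_one, ← e1]

theorem inv2 (h2 : (2 : F) ≠ 0) {A : Matrix (Fin 2) (Fin 2) F} (h : A * A = 1) (hd : A.det = 1) :
    A 0 1 = 0 ∧ A 0 0 * A 0 0 = 1 := by
  have e00 := congrFun (congrFun h 0) 0
  have e01 := congrFun (congrFun h 0) 1
  have e11 := congrFun (congrFun h 1) 1
  rw [det_fin_two] at hd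
  simp [Matrix.mul_apply, Fin.sum_univ_two] at e00 e01 e11
  have t : A 0 0 + A 1 1 ≠ 0 := by
    intro t
    apply h2
    have : A 1 1 = - A 0 0 := by linear_combination t
    rw [this] at hd
    linear_combination -hd - e00
  have b : A 0 1 = 0 := by
    have : A 0 1 * (A 0 0 + A 1 1) = 0 := by linear_combination e01
    exact (mul_eq_zero.1 this).resolve_right t
  exact ⟨b, by rw [b] at e00; linear_combination e00⟩

theorem S1.inv_eq (h2 : (2 : F) ≠ 0) (hD : DG G) {z : Mt F} (h : S1 G z) (e : z * z = 1) :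
    z = 1 := by
  have k : ∀ i : Fin 11, i ≠ 0 → z i (-i) = 0 ∧ z i i * z i i = 1 := by
    intro i hi
    have := inv2 h2 (A := bl i z) (by rw [← bl_mul h.bd _ hi, e, bl_one hi]) (h.det i hi)
    simpa [bl] using this
  have d : z = diagonal fun i => z i i := by
    ext i j
    by_cases hij : i = j
    · subst hij; simp
    · rw [diagonal_apply_ne _ hij]
      by_cases h1 : j = -i
      · subst h1
        exact (k i (by rintro rfl; simp at hij)).1
      · exact h.bd i j (Ne.symm hij) h1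
  obtain ⟨c, hc⟩ := hD (fun i => z i i) (d ▸ h.mem)
  have c1 : c = 1 := by rw [← hc 0, h.z, one_pow]
  rw [d, ← diagonal_one]
  congr 1
  funext i
  by_cases hi : i = 0
  · rw [hi, h.z]
  · have h1 := (k i hi).2
    have h3 := hc i
    rw [c1] at h3
    have : z i i ^ 11 = (z i i * z i i) ^ 5 * z i i := by ring
    rw [this, h1, one_pow, one_mul] at h3
    exact h3

theorem S1.odd [Finite F] (h2 : (2 : F) ≠ 0) (hD : DG G) {y : Mt F} (h : S1 G y) :
    ∃ n, y ^ (2 * n + 1) = 1 := by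
  obtain ⟨g, hg, rfl⟩ := h.mem
  rcases Nat.even_or_odd' (orderOf g) with ⟨n, hn | hn⟩
  · exfalso
    have pos := orderOf_pos g
    have e : (g : Mt F) ^ n * (g : Mt F) ^ n = 1 := by
      rw [← pow_add, ← two_mul, ← hn, ← Units.val_pow_eq_pow_val, pow_orderOf_eq_one, Units.val_one]
    have e1 := (h.pow n).inv_eq h2 hD e
    have e2 : g ^ n = 1 := Units.ext (by rw [Units.val_pow_eq_pow_val, e1, Units.val_one])
    have := Nat.le_of_dvd (by omega) (orderOf_dvd_of_pow_eq_one e2)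
    omega
  · exact ⟨n, by rw [← hn, ← Units.val_pow_eq_pow_val, pow_orderOf_eq_one, Units.val_one]⟩

/-- the image on a block -/
noncomputable def MM [Finite F] (h2 : (2 : F) ≠ 0) (hD : DG G) {i : Fin 11} (hi : i ≠ 0) :
    Subgroup PGL(2, F) where
  carrier := {x | ∃ y, S1 G y ∧ pg (bl i y) = x}
  one_mem' := ⟨1, S1.one, by rw [bl_one hi, pg_one]⟩
  mul_mem' := by
    rintro _ _ ⟨y, hy, rfl⟩ ⟨y', hy', rfl⟩
    refine ⟨y * y', hy.mul hy', ?_⟩
    rw [bl_mul hy.bd _ hi, pg_mul (by simp [hy.det i hi]) (by simp [hy'.det i hi])]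
  inv_mem' := by
    rintro _ ⟨y, hy, rfl⟩
    obtain ⟨n, hn⟩ := hy.odd h2 hD
    refine ⟨y ^ (2 * n), hy.pow _, (inv_eq_of_mul_eq_one_left ?_).symm⟩
    rw [pg_mul (by simp [(hy.pow _).det i hi]) (by simp [hy.det i hi]),
      ← bl_mul (hy.pow _).bd _ hi, ← pow_succ, hn, bl_one hi, pg_one]

theorem MM_odd [Finite F] (h2 : (2 : F) ≠ 0) (hD : DG G) {i : Fin 11} (hi : i ≠ 0)
    {x : PGL(2, F)} (hx : x ∈ MM h2 hD hi) : ∃ n, x = ((x * x) ^ n)⁻¹ := by
  obtain ⟨y, hy, rfl⟩ := hx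
  obtain ⟨n, hn⟩ := hy.odd h2 hD
  refine ⟨n, eq_inv_of_mul_eq_one_right ?_⟩
  rw [← sq, ← pow_mul, ← pow_succ, pg_pow (by simp [hy.det i hi]), ← bl_pow hy hi, hn, bl_one hi,
    pg_one]

theorem MM_no2 [Finite F] (h2 : (2 : F) ≠ 0) (hD : DG G) {i : Fin 11} (hi : i ≠ 0)
    {x : PGL(2, F)} (hx : x ∈ MM h2 hD hi) (e : x * x = 1) : x = 1 := by
  obtain ⟨n, hn⟩ := MM_odd h2 hD hi hx
  rw [hn, e]; simp

theorem no_iso {M H : Type*} [Group M] [Group H] (h : ∀ x : M, x * x = 1 → x = 1) (e : M ≃* H)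
    (t : H) (t1 : t * t = 1) : t = 1 := by
  have := h (e.symm t) (by rw [← map_mul, t1, map_one])
  simpa using congrArg e this

theorem MM_fix [Finite F] {p : ℕ} [Fact p.Prime] [CharP F p] (h2 : (2 : F) ≠ 0) (hD : DG G)
    {i : Fin 11} (hi : i ≠ 0) : ∃ x : Pt F, ∀ g ∈ MM h2 hD hi, g • x = x := by
  have no : ∀ x : MM h2 hD hi, x * x = 1 → x = 1 := fun x e =>
    Subtype.ext (MM_no2 h2 hD hi x.2 (congrArg Subtype.val e))
  rcases dickson p (MM h2 hD hi) with ⟨x, hx⟩ | ⟨x, y, -, hx⟩ | ⟨-, ⟨e⟩⟩ | ⟨-, ⟨e⟩⟩ | ⟨-, -, ⟨e⟩⟩ |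
    ⟨h, L, -, h1, -⟩
  · exact ⟨x, fun g hg => hx hg⟩
  · refine ⟨x, fun g hg => ?_⟩
    obtain ⟨n, hn⟩ := MM_odd h2 hD hi hg
    have : g * g ∈ MulAction.stabilizer PGL(2, F) x := by
      rw [MulAction.mem_stabilizer_iff, mul_smul]
      rcases hx hg with ⟨a, b⟩ | ⟨a, b⟩
      · rw [a, a]
      · rw [a, b]
    have h3 : g ∈ MulAction.stabilizer PGL(2, F) x := by
      rw [hn]; exact Subgroup.inv_mem _ (Subgroup.pow_mem _ this n)
    exact h3
  · exact absurd (no_iso no e ⟨Equiv.swap 0 1 * Equiv.swap 2 3, by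
      rw [Equiv.Perm.mem_alternatingGroup]; decide⟩ (Subtype.ext (by decide)))
      (fun h => absurd (congrArg Subtype.val h) (by decide))
  · exact absurd (no_iso no e (Equiv.swap 0 1) (by decide)) (by decide)
  · exact absurd (no_iso no e ⟨Equiv.swap 0 1 * Equiv.swap 2 3, by
      rw [Equiv.Perm.mem_alternatingGroup]; decide⟩ (Subtype.ext (by decide)))
      (fun h => absurd (congrArg Subtype.val h) (by decide))
  · exfalso
    have d : (!![0, 1; -1, 0] : Matrix (Fin 2) (Fin 2) F).det = 1 := by simp [det_fin_two]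
    have m : pg (!![0, 1; -1, 0] : Matrix (Fin 2) (Fin 2) F) ∈ PS L := by
      refine mem_PS.2 ⟨_, d, fun r c => ?_, rfl⟩
      fin_cases r <;> fin_cases c <;> simp [L.zero_mem, L.one_mem, L.neg_mem]
    have sq : pg (!![0, 1; -1, 0] : Matrix (Fin 2) (Fin 2) F) * pg !![0, 1; -1, 0] = 1 := by
      rw [pg_mul (by simp [d]) (by simp [d]), pg_eq_one (by rw [det_mul, d]; simp)]
      simp
    have := MM_no2 h2 hD hi (mem_cj.1 (h1 m)) (by
      have : ∀ u v : PGL(2, F), u⁻¹ * v * u * (u⁻¹ * v * u) = u⁻¹ * (v * v) * u := by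
        intro u v; group
      rw [this, sq]; simp)
    have h3 : pg (!![0, 1; -1, 0] : Matrix (Fin 2) (Fin 2) F) = 1 := by
      have h4 := congrArg (fun u => h * u * h⁻¹) this
      simpa [mul_assoc] using h4
    rw [pg_eq_one (by simp [d])] at h3
    simp at h3

theorem fix_infty {A : Matrix (Fin 2) (Fin 2) F} (hA : A.det ≠ 0) :
    pg A • rat (∞ : OnePoint F) = rat ∞ ↔ A 1 0 = 0 := by
  rw [smul_rat, rat_inj, pg_infty hA]
  split_ifs with h <;> simp [h]

theorem fix_zero {A : Matrix (Fin 2) (Fin 2) F} (hA : A.det ≠ 0) :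
    pg A • rat ((0 : F) : OnePoint F) = rat (0 : F) ↔ A 0 1 = 0 := by
  rw [smul_rat, rat_inj, pg_some hA]
  rw [det_fin_two] at hA
  split_ifs with h
  · simp only [MulZeroClass.mul_zero, zero_add] at h
    simp only [infty_ne_coe, false_iff]
    intro h1
    apply hA
    rw [h, h1]; simp
  · simp only [MulZeroClass.mul_zero, zero_add] at h
    simp [h]

theorem zi (hζ : IsPrimitiveRoot ζ 11) {i : Fin 11} (hi : i ≠ 0) :
    ζ ^ (i : ℕ) ≠ ζ ^ ((-i : Fin 11) : ℕ) ∧ ζ ^ (i : ℕ) * ζ ^ ((-i : Fin 11) : ℕ) = 1 := by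
  refine ⟨fun h => ne_neg hi (Fin.ext (hζ.pow_inj i.2 (-i).2 h).symm), ?_⟩
  have : (i : ℕ) + ((-i : Fin 11) : ℕ) = 11 := by revert i; decide
  rw [← pow_add, this, hζ.pow_eq_one]

theorem bl_a {i : Fin 11} (hi : i ≠ 0) :
    bl i (mA ζ) = !![ζ ^ (i : ℕ), 0; 0, ζ ^ ((-i : Fin 11) : ℕ)] := by
  have h1 := ne_neg hi
  simp [bl, mA, diagonal_apply_ne _ h1, diagonal_apply_ne _ h1.symm]

theorem S1.a (h : Ctx ζ G) : S1 G (mA ζ) :=
  ⟨h.a, BD.diag _, by simp [mA], fun i hi => by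
    rw [bl_a hi, det_fin_two]; simpa using (zi h.prim hi).2⟩

theorem bdT : BD (mT F) := by
  intro i j h1 h2
  have : i ≠ -j := fun e => h2 (by rw [e, neg_neg])
  simp [mT, this]

theorem tt : mT F * mT F = 1 := by
  ext i j
  simp only [mT, Matrix.mul_apply, of_apply, Fin.sum_univ_succ]
  fin_cases i <;> fin_cases j <;> simp +decide

theorem blT {i : Fin 11} (hi : i ≠ 0) : bl i (mT F) = !![0, 1; 1, 0] := by
  have h1 := ne_neg hi
  simp [bl, mT, h1, h1.symm]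

theorem diagS [Finite F] {p : ℕ} [Fact p.Prime] [CharP F p] (h2 : (2 : F) ≠ 0) (h : Ctx ζ G)
    (hD : DG G) {i : Fin 11} (hi : i ≠ 0) {y : Mt F} (hy : S1 G y) :
    bl i y 0 1 = 0 ∧ bl i y 1 0 = 0 := by
  obtain ⟨x, hx⟩ := MM_fix (p := p) h2 hD hi
  have fx : ∀ y, S1 G y → pg (bl i y) • x = x := fun y hy => hx _ ⟨y, hy, rfl⟩
  have da : (bl i (mA ζ)).det ≠ 0 := by simp [(S1.a h).det i hi]
  have sw : ∀ y, S1 G y → ∃ y', S1 G y' ∧ bl i y' 0 1 = bl i y 1 0 ∧ bl i y' 1 0 = bl i y 0 1 := by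
    intro y hy
    refine ⟨_, hy.conj h.t h.t bdT bdT tt, ?_⟩
    rw [bl_mul (bdT.mul hy.bd) _ hi, bl_mul bdT _ hi, blT hi]
    simp [Matrix.mul_apply, Fin.sum_univ_two, Matrix.vecMul, dotProduct]
  obtain ⟨y', hy', e1, e2⟩ := sw y hy
  have d : (bl i y).det ≠ 0 := by simp [hy.det i hi]
  have d' : (bl i y').det ≠ 0 := by simp [hy'.det i hi]
  by_cases x1 : x = rat ∞
  · subst x1
    exact ⟨e2 ▸ (fix_infty d').1 (fx _ hy'), (fix_infty d).1 (fx _ hy)⟩
  by_cases x2 : x = rat (0 : F)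
  · subst x2
    exact ⟨(fix_zero d).1 (fx _ hy), e1 ▸ (fix_zero d').1 (fx _ hy')⟩
  exfalso
  have f1 : pg (bl i (mA ζ)) • rat (∞ : OnePoint F) = rat ∞ := (fix_infty da).2 (by simp [bl_a hi])
  have f2 : pg (bl i (mA ζ)) • rat ((0 : F) : OnePoint F) = rat (0 : F) :=
    (fix_zero da).2 (by simp [bl_a hi])
  have t := three (ProjGenLinGroup.map (algebraMap F (AlgebraicClosure F)) (pg (bl i (mA ζ))))
    x (rat ∞) (rat (0 : F)) x1 x2 (fun e => OnePoint.infty_ne_coe _ (rat_inj.1 e)) (fx _ (S1.a h)) f1 f2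
  have t2 : pg (bl i (mA ζ)) = 1 := map_injective _ (t.trans (map_one _).symm)
  rw [pg_eq_one da, bl_a hi] at t2
  exact (zi h.prim hi).1 (by simpa using t2.2.2)

end Gam

open Gam

variable {F : Type*} [Field F] [Fintype F] {ζ : F} {G : Subgroup (GL (Fin 11) F)} {p : ℕ}

theorem gam (hF : FH F p) (hp : p ≠ 2) (h : Ctx ζ G) (hD : DG G) : GM ζ G := by
  haveI : Fact p.Prime := ⟨hF.1⟩
  haveI := hF.2.1
  have h2 : (2 : F) ≠ 0 := by
    intro e
    have : ((2 : ℕ) : F) = 0 := by exact_mod_cast e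
    rw [CharP.cast_eq_zero_iff F p] at this
    exact hp ((Nat.prime_dvd_prime_iff_eq hF.1 Nat.prime_two).1 this)
  intro g hg hc i hi
  obtain ⟨g', hg', e1, e2⟩ := hg.exists_inv
  have hc' : g' * mD ζ = mD ζ * g' := by
    calc g' * mD ζ = g' * mD ζ * (g * g') := by rw [e1, mul_one]
      _ = g' * (mD ζ * g) * g' := by simp only [mul_assoc]
      _ = (g' * g) * mD ζ * g' := by rw [← hc]; simp only [mul_assoc]
      _ = mD ζ * g' := by rw [e2, one_mul]
  have b := BD.of_comm h.prim hc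
  have b' := BD.of_comm h.prim hc'
  have s := (S1.a h).conj hg hg' b b' e1
  obtain ⟨s1, s2⟩ := diagS (p := p) h2 h hD hi s
  have k : bl i (g * mA ζ * g') * bl i g = bl i g * bl i (mA ζ) := by
    rw [← bl_mul s.bd _ hi, ← bl_mul b _ hi, mul_assoc, e2, mul_one]
  have d : (bl i g).det ≠ 0 := by
    have := congrArg Matrix.det (bl_mul b g' hi)
    rw [e1, bl_one hi, det_one, det_mul] at this
    exact left_ne_zero_of_mul_eq_one this.symm
  have z := (zi h.prim hi).1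
  rw [bl_a hi] at k
  have k00 := congrFun (congrFun k 0) 0
  have k01 := congrFun (congrFun k 0) 1
  have k10 := congrFun (congrFun k 1) 0
  have k11 := congrFun (congrFun k 1) 1
  rw [det_fin_two] at d
  generalize bl i (g * mA ζ * g') = S at *
  simp [Matrix.mul_apply, Fin.sum_univ_two, s1, s2] at k00 k01 k10 k11
  have r0 : bl i g 0 0 = 0 ∨ bl i g 0 1 = 0 := by
    by_contra hh
    push Not at hh
    apply z
    have a1 : S 0 0 = ζ ^ (i : ℕ) := mul_right_cancel₀ hh.1 (k00.trans (mul_comm _ _))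
    have a2 : S 0 0 = ζ ^ ((-i : Fin 11) : ℕ) := mul_right_cancel₀ hh.2 (k01.trans (mul_comm _ _))
    rw [← a1, a2]
  have r1 : bl i g 1 0 = 0 ∨ bl i g 1 1 = 0 := by
    by_contra hh
    push Not at hh
    apply z
    have a1 : S 1 1 = ζ ^ (i : ℕ) := mul_right_cancel₀ hh.1 (k10.trans (mul_comm _ _))
    have a2 : S 1 1 = ζ ^ ((-i : Fin 11) : ℕ) := mul_right_cancel₀ hh.2 (k11.trans (mul_comm _ _))
    rw [← a1, a2]
  have g00 : bl i g 0 0 = g i i := rfl
  have g01 : bl i g 0 1 = g i (-i) := rfl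
  have g10 : bl i g 1 0 = g (-i) i := rfl
  have g11 : bl i g 1 1 = g (-i) (-i) := rfl
  rw [g00, g01] at r0
  rw [g10, g11] at r1
  rw [g00, g01, g10, g11] at d
  rcases r0 with r0 | r0 <;> rcases r1 with r1 | r1
  · exact absurd (by rw [r0, r1]; simp) d
  · exact Or.inr ⟨r0, r1⟩
  · exact Or.inl ⟨r0, r1⟩
  · exact absurd (by rw [r0, r1]; simp) d

end Cfsg.Agent.C11
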