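import Cfsg.Agent.C7.Hh

/-! An element of order eleven normalising a coprime `l`-group in dimension at most six. -/

set_option autoImplicit false
open Matrix Module

namespace Cfsg.Agent.C11
namespace Hh

open Cfsg.Agent.C7.Hh (indep mv_mul mv_ne weight' two_index)

variable {K : Type*} [Field K] {n : ℕ} [IsAlgClosed K]

theorem ab (hn : n ≤ 6) {l : ℕ} (hc : (l : K) ≠ 0) {A : Subgroup (GL (Fin n) K)} (hP : IsPGroup l A)
    (hA : ∀ a ∈ A, ∀ b ∈ A, a * b = b * a) {δ : GL (Fin n) K} (hδ : δ ^ 11 = 1)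
    (hn' : ∀ x ∈ A, δ * x * δ⁻¹ ∈ A) : ∀ x ∈ A, δ * x = x * δ := by
  intro x hx
  by_contra hne
  have hpw : ∀ k : ℕ, ∀ y ∈ A, δ ^ k * y * (δ ^ k)⁻¹ ∈ A := by
    intro k
    induction k with
    | zero => intro y hy; simpa using hy
    | succ k ih =>
      intro y hy
      have := hn' _ (ih y hy)
      rwa [show δ * (δ ^ k * y * (δ ^ k)⁻¹) * δ⁻¹ = δ ^ (k + 1) * y * (δ ^ (k + 1))⁻¹ by group] at this
  have hN : δ ∈ Subgroup.normalizer (A : Set (GL (Fin n) K)) := by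
    rw [Subgroup.mem_normalizer_iff]
    intro y
    refine ⟨hn' y, fun hy => ?_⟩
    have := hpw 10 _ hy
    rwa [show δ ^ 10 * (δ * y * δ⁻¹) * (δ ^ 10)⁻¹ = δ ^ 11 * y * (δ ^ 11)⁻¹ by group, hδ, one_mul, inv_one,
      mul_one] at this
  have hcA : x⁻¹ * (δ * x * δ⁻¹) ∈ A := A.mul_mem (A.inv_mem hx) (hn' x hx)
  obtain ⟨k, hk⟩ := hP ⟨_, hcA⟩
  obtain ⟨v, hv0, χ, hχ, hχ1⟩ := weight' A hA hcA (fun e => hne (by
      calc δ * x = x * (x⁻¹ * (δ * x * δ⁻¹)) * δ := by group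
        _ = x * δ := by rw [e, mul_one])) (m := l ^ k) (congrArg Subtype.val hk)
    (by push_cast; exact pow_ne_zero _ hc)
  let α : MulAut A := A.normalizerMonoidHom ⟨δ, hN⟩
  have hα : ∀ (k : ℕ) (a : A), ((α ^ k) a).1 = δ ^ k * a.1 * (δ ^ k)⁻¹ := by
    intro k a
    rw [← map_pow]; rfl
  have hα7 : α ^ 11 = 1 := by
    ext a
    rw [hα, hδ]; simp
  let S : Subgroup (MulAut A) :=
    { carrier := {β | ∀ a, χ (β a) = χ a}
      mul_mem' := fun {β γ} h1 h2 a => by rw [MulAut.mul_apply, h1, h2]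
      one_mem' := fun _ => rfl
      inv_mem' := fun {β} h1 a => by rw [← h1 (β⁻¹ a)]; simp }
  have hS : α ∉ S := by
    intro h1
    apply hχ1
    have h2 := h1 ⟨x, hx⟩
    have h3 : (⟨_, hcA⟩ : A) = (⟨x, hx⟩ : A)⁻¹ * α ⟨x, hx⟩ := rfl
    rw [h3, map_mul, h2, ← map_mul, inv_mul_cancel, map_one]
  have hS' : ∀ d : ℕ, 1 ≤ d → d ≤ 6 → α ^ d ∉ S := by
    intro d h1 h2 h3
    apply hS
    have e : ∀ e j : ℕ, d * e = 11 * j + 1 → α ∈ S := fun e j h4 => by
      have := S.pow_mem h3 e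
      rwa [← pow_mul, h4, pow_succ, pow_mul, hα7, one_pow, one_mul] at this
    interval_cases d
    exacts [e 1 0 rfl, e 6 1 rfl, e 4 1 rfl, e 3 1 rfl, e 9 4 rfl, e 2 1 rfl]
  have li := indep (H := A) (ι := Fin 7) (fun a => Matrix.toLin' a.1.1) (fun i => ((δ ^ i.1)⁻¹).1 *ᵥ v)
    (fun i => χ.comp (α ^ i.1).toMonoidHom) (by
      have key : ∀ i j : Fin 7, i < j →
          χ.comp (α ^ i.1).toMonoidHom = χ.comp (α ^ j.1).toMonoidHom → False := by
        intro i j hij e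
        refine hS' (j.1 - i.1) (by omega) (by omega) fun a => ?_
        have h1 := DFunLike.congr_fun e ((α ^ i.1)⁻¹ a)
        change χ ((α ^ i.1 * (α ^ i.1)⁻¹) a) = χ ((α ^ j.1 * (α ^ i.1)⁻¹) a) at h1
        rw [mul_inv_cancel, ← pow_sub α (le_of_lt hij)] at h1
        exact h1.symm
      intro i j e
      rcases lt_trichotomy i j with h | h | h
      · exact (key i j h e).elim
      · exact h
      · exact (key j i h e.symm).elim)
    (fun i => mv_ne _ hv0) (fun a i => by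
      change a.1.1 *ᵥ _ = χ ((α ^ i.1) a) • _
      rw [← mulVec_smul, ← hχ, hα, ← mv_mul, ← mv_mul]
      congr 2
      group)
  have := li.fintype_card_le_finrank
  simp at this
  omega

theorem main (hn : n ≤ 6) {l : ℕ} (hl : l.Prime) (h7 : l ≠ 11) (hc : (l : K) ≠ 0) {δ : GL (Fin n) K}
    (hδ : δ ^ 11 = 1) (m : ℕ) : ∀ P : Subgroup (GL (Fin n) K), Finite P → Nat.card P = m → IsPGroup l P →
      (∀ x ∈ P, δ * x * δ⁻¹ ∈ P) → ∀ x ∈ P, δ * x = x * δ := by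
  induction m using Nat.strong_induction_on with
  | _ m ih =>
  intro P hfin hm hP hδP x0 hx0
  by_contra hne
  haveI := Fact.mk hl
  have IH : ∀ N : Subgroup (GL (Fin n) K), N ≤ P → N ≠ P → (∀ x ∈ N, δ * x * δ⁻¹ ∈ N) →
      ∀ x ∈ N, δ * x = x * δ := by
    intro N h1 h2 h3
    haveI : Finite N := Finite.of_injective _ (Subgroup.inclusion_injective h1)
    refine ih _ ?_ N inferInstance rfl (hP.to_le h1) h3
    rw [← hm]
    refine lt_of_le_of_ne (Subgroup.card_le_of_le h1) fun e => h2 (Subgroup.eq_of_le_of_card_ge h1 e.ge)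
  have fixd : ∀ x ∈ P, δ * (x⁻¹ * (δ * x * δ⁻¹)) = (x⁻¹ * (δ * x * δ⁻¹)) * δ → δ * x = x * δ := by
    intro x hx h1
    have hd : x⁻¹ * (δ * x * δ⁻¹) ∈ P := P.mul_mem (P.inv_mem hx) (hδP x hx)
    have h0 : δ * x = x * (x⁻¹ * (δ * x * δ⁻¹)) * δ := by group
    generalize x⁻¹ * (δ * x * δ⁻¹) = d at h1 hd h0
    have h2 : ∀ k : ℕ, δ ^ k * x = x * d ^ k * δ ^ k := by
      intro k
      induction k with
      | zero => simp
      | succ k ih' =>
        have hc' : Commute δ d := h1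
        rw [pow_succ', mul_assoc, ih', ← mul_assoc, ← mul_assoc, h0, mul_assoc (x * d) δ,
          (hc'.pow_right k).eq]
        group
    have h3 := h2 11
    rw [hδ, one_mul, mul_one, left_eq_mul] at h3
    obtain ⟨k, hk⟩ := hP ⟨d, hd⟩
    have h4 : d ^ l ^ k = 1 := congrArg Subtype.val hk
    have h5 : d = 1 := by
      have := Nat.dvd_gcd (orderOf_dvd_of_pow_eq_one h3) (orderOf_dvd_of_pow_eq_one h4)
      rwa [Nat.Coprime.pow_right k ((Nat.coprime_primes (by norm_num) hl).2 h7.symm), Nat.dvd_one,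
        orderOf_eq_one_iff] at this
    rw [h0, h5, mul_one]
  have cent : ∀ N : Subgroup (GL (Fin n) K), N ≤ P → N ≠ P → (∀ x ∈ N, δ * x * δ⁻¹ ∈ N) →
      (∀ x ∈ P, ∀ y ∈ N, x * y * x⁻¹ ∈ N) → ∀ y ∈ N, ∀ x ∈ P, x * y = y * x := by
    intro N h1 h2 h3 h4
    have h5 := IH N h1 h2 h3
    by_cases e : P ⊓ Subgroup.centralizer (N : Set _) = P
    · intro y hy x hx
      exact ((e.ge hx).2 y hy).symm
    refine absurd (fixd x0 hx0 (IH _ inf_le_left e ?_ _ ⟨P.mul_mem (P.inv_mem hx0) (hδP x0 hx0), ?_⟩)) hne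
    · rintro x ⟨hx, hx'⟩
      refine ⟨hδP x hx, fun y hy => ?_⟩
      calc y * (δ * x * δ⁻¹) = (y * δ) * x * δ⁻¹ := by group
        _ = δ * (y * x) * δ⁻¹ := by rw [← h5 y hy]; group
        _ = δ * x * δ⁻¹ * (δ * y) * δ⁻¹ := by rw [hx' y hy]; group
        _ = _ := by rw [h5 y hy]; group
    · intro y hy
      have e1 := h5 _ (h4 x0 hx0 y hy)
      have e2 := h5 y hy
      calc y * (x0⁻¹ * (δ * x0 * δ⁻¹)) = x0⁻¹ * (x0 * y * x0⁻¹ * δ) * x0 * δ⁻¹ := by group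
        _ = x0⁻¹ * δ * x0 * δ⁻¹ * (δ * y) * δ⁻¹ := by rw [← e1]; group
        _ = _ := by rw [e2]; group
  have hsur : ∀ y ∈ P, δ⁻¹ * y * δ ∈ P := fun y hy =>
    (Subgroup.mem_normalizer_iff''.1 (Subgroup.mem_normalizer_fintype hδP) y).1 hy
  let Z : Subgroup (GL (Fin n) K) := P ⊓ Subgroup.centralizer (P : Set _)
  have hZ : ∀ z, z ∈ Z ↔ z ∈ P ∧ ∀ x ∈ P, x * z = z * x := fun z => Iff.rfl
  have hnab : ∃ x ∈ P, ∃ y ∈ P, x * y ≠ y * x := by
    by_contra h1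
    push Not at h1
    exact hne (ab hn hc hP h1 hδ hδP x0 hx0)
  obtain ⟨x1, hx1, y1, hy1, hxy1⟩ := hnab
  have hcomm : ∀ x ∈ P, ∀ y ∈ P, x⁻¹ * y * x * y⁻¹ ∈ Z := by
    have hmap : ∀ g : GL (Fin n) K, (∀ x ∈ P, g * x * g⁻¹ ∈ P) → ∀ x ∈ ⁅P, P⁆, g * x * g⁻¹ ∈ ⁅P, P⁆ := by
      intro g hg x hx
      have h1 : P.map (MulAut.conj g).toMonoidHom ≤ P := by
        rintro _ ⟨y, hy, rfl⟩
        exact hg y hy
      have h2 : (⁅P, P⁆).map (MulAut.conj g).toMonoidHom ≤ ⁅P, P⁆ := by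
        rw [Subgroup.map_commutator]
        exact Subgroup.commutator_mono h1 h1
      exact h2 ⟨x, hx, rfl⟩
    have hle : ⁅P, P⁆ ≤ P := Subgroup.commutator_le.2 fun a ha b hb =>
      P.mul_mem (P.mul_mem (P.mul_mem ha hb) (P.inv_mem ha)) (P.inv_mem hb)
    have hne' : ⁅P, P⁆ ≠ P := by
      haveI := hP.isNilpotent
      haveI : Nontrivial P := ⟨⟨⟨x0, hx0⟩, 1, fun e => hne (by
        rw [show x0 = 1 from congrArg Subtype.val e, mul_one, one_mul])⟩⟩
      intro e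
      have h1 := Group.IsSolvable.commutator_lt_top_of_nontrivial P
      apply h1.ne
      apply Subgroup.map_injective P.subtype_injective
      rw [Subgroup.map_subtype_commutator, e, ← MonoidHom.range_eq_map, Subgroup.range_subtype]
    intro x hx y hy
    have h1 : x⁻¹ * y * x * y⁻¹ ∈ ⁅P, P⁆ := by
      have := Subgroup.commutator_mem_commutator (P.inv_mem hx) hy
      rwa [commutatorElement_def, inv_inv] at this
    exact ⟨hle h1, cent _ hle hne' (hmap δ hδP) (fun g hg => hmap g fun x hx =>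
      P.mul_mem (P.mul_mem hg hx) (P.inv_mem hg)) _ h1⟩
  have sub : ∀ N : Subgroup (GL (Fin n) K), Z ≤ N → N ≤ P → N ≠ P → (∀ x ∈ N, δ * x * δ⁻¹ ∈ N) → N ≤ Z := by
    intro N h0 h1 h2 h3 y hy
    refine ⟨h1 hy, cent N h1 h2 h3 (fun g hg w hw => ?_) y hy⟩
    have := N.mul_mem hw (h0 (hcomm w (h1 hw) g hg))
    rwa [show w * (w⁻¹ * g * w * g⁻¹) = g * w * g⁻¹ by group] at this
  have hZP : Z ≠ P := fun e => hxy1 ((e.ge hy1).2 x1 hx1)
  have hZδ : ∀ z ∈ Z, δ * z = z * δ := by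
    refine IH Z inf_le_left hZP fun z hz => ⟨hδP z hz.1, ?_⟩
    intro y hy
    calc y * (δ * z * δ⁻¹) = δ * (δ⁻¹ * y * δ * z) * δ⁻¹ := by group
      _ = _ := by rw [hz.2 _ (hsur y hy)]; group
  obtain ⟨k1, hk1⟩ := hP ⟨_, (hcomm x1 hx1 y1 hy1).1⟩
  obtain ⟨v, hv0, χ, hχ, hχ1⟩ := weight' Z (fun a ha b hb => hb.2 a ha.1) (hcomm x1 hx1 y1 hy1)
    (fun e => hxy1 (by
      calc x1 * y1 = x1 * (x1⁻¹ * y1 * x1 * y1⁻¹) * y1 := by rw [e, mul_one]
        _ = _ := by group)) (m := l ^ k1) (congrArg Subtype.val hk1) (by push_cast; exact pow_ne_zero _ hc)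
  let ψ : P → P →* K := fun x =>
    { toFun := fun y => χ ⟨_, hcomm x.1 x.2 y.1 y.2⟩
      map_one' := by
        rw [← map_one χ]; congr 1; exact Subtype.ext (by simp)
      map_mul' := fun y y' => by
        rw [← map_mul]; congr 1
        refine Subtype.ext ?_
        have := (hcomm x.1 x.2 y'.1 y'.2).2 _ (P.inv_mem y.2)
        change x.1⁻¹ * (y.1 * y'.1) * x.1 * (y.1 * y'.1)⁻¹ =
          x.1⁻¹ * y.1 * x.1 * y.1⁻¹ * (x.1⁻¹ * y'.1 * x.1 * y'.1⁻¹)
        rw [mul_assoc (x.1⁻¹ * y.1 * x.1), this]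
        group }
  have hψ : ∀ x y : P, ψ x y = χ ⟨_, hcomm x.1 x.2 y.1 y.2⟩ := fun _ _ => rfl
  have hψ1 : ∀ x y : P, x.1 * y.1 = y.1 * x.1 → ψ x y = 1 := by
    intro x y e
    rw [hψ, ← map_one χ]; congr 1
    refine Subtype.ext ?_
    change x.1⁻¹ * y.1 * x.1 * y.1⁻¹ = 1
    rw [mul_assoc x.1⁻¹, ← e]; group
  have hψm : ∀ x x' y : P, ψ (x * x') y = ψ x y * ψ x' y := by
    intro x x' y
    rw [hψ, hψ, hψ, ← map_mul]; congr 1
    refine Subtype.ext ?_
    have := (hcomm x.1 x.2 y.1 y.2).2 _ (P.inv_mem x'.2)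
    change (x.1 * x'.1)⁻¹ * y.1 * (x.1 * x'.1) * y.1⁻¹ =
      x.1⁻¹ * y.1 * x.1 * y.1⁻¹ * (x'.1⁻¹ * y.1 * x'.1 * y.1⁻¹)
    rw [← mul_assoc _ (x'.1⁻¹ * y.1 * x'.1), ← mul_assoc _ (x'.1⁻¹ * y.1), ← mul_assoc _ x'.1⁻¹, ← this]
    group
  have hψs : ∀ x y : P, ψ x y * ψ y x = 1 := by
    intro x y
    have h1 : ψ (x * y) (x * y) = 1 := hψ1 _ _ rfl
    rw [hψm, map_mul, map_mul, hψ1 x x rfl, hψ1 y y rfl, one_mul, mul_one] at h1
    exact h1
  have hnd : ∀ x : P, (∀ y, ψ x y = 1) → x.1 ∈ Z := by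
    let R : Subgroup P :=
      { carrier := {x | ∀ y, ψ x y = 1}
        mul_mem' := fun {a b} ha hb y => by rw [hψm, ha y, hb y, one_mul]
        one_mem' := fun y => hψ1 _ _ (by simp)
        inv_mem' := fun {a} ha y => by
          have := hψm a⁻¹ a y
          rw [ha y, mul_one, inv_mul_cancel, hψ1 1 y (by simp)] at this
          exact this.symm }
    intro x hx
    refine sub (R.map P.subtype) (fun z hz => ⟨⟨z, hz.1⟩, fun y => hψ1 _ _ (hz.2 y.1 y.2).symm, rfl⟩)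
      (Subgroup.map_subtype_le R) (fun e => ?_) ?_ ⟨x, hx, rfl⟩
    · obtain ⟨x', hx', e'⟩ := e.ge hx1
      have e'' : x' = ⟨x1, hx1⟩ := Subtype.ext e'
      exact hχ1 (e'' ▸ hx' ⟨y1, hy1⟩ :)
    · rintro _ ⟨w, hw, rfl⟩
      refine ⟨⟨_, hδP w.1 w.2⟩, fun y => ?_, rfl⟩
      have hy' : δ⁻¹ * y.1 * δ ∈ P := hsur y.1 y.2
      rw [← hw ⟨_, hy'⟩, hψ, hψ]; congr 1
      refine Subtype.ext ?_
      have := hZδ _ (hcomm w.1 w.2 _ hy')
      change (δ * w.1 * δ⁻¹)⁻¹ * y.1 * (δ * w.1 * δ⁻¹) * y.1⁻¹ =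
        w.1⁻¹ * (δ⁻¹ * y.1 * δ) * w.1 * (δ⁻¹ * y.1 * δ)⁻¹
      calc _ = δ * (w.1⁻¹ * (δ⁻¹ * y.1 * δ) * w.1 * (δ⁻¹ * y.1 * δ)⁻¹) * δ⁻¹ := by group
        _ = _ := by rw [this]; group
  let Zp : Subgroup P := Z.subgroupOf P
  haveI : Finite Z := Finite.of_injective _ (Subgroup.inclusion_injective (inf_le_left : Z ≤ P))
  obtain ⟨kz, hkz⟩ := (hP.to_le (inf_le_left : Z ≤ P)).exists_card_eq
  have hb : Zp.index ≤ 36 := by
    classical
    haveI := Fintype.ofFinite Z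
    haveI := Fintype.ofFinite (P ⧸ Zp)
    have mul_comm' : ∀ a b : Z, a * b = b * a := fun a b => Subtype.ext (b.2.2 a.1 a.2.1)
    let e : Matrix (Fin n) (Fin n) K := ∑ z : Z, χ z⁻¹ • z.1.1
    have he1 : ∀ z : Z, z.1.1 * e = χ z • e := by
      intro z
      simp only [e, Finset.mul_sum, Finset.smul_sum, smul_smul, mul_smul_comm]
      refine Fintype.sum_equiv (Equiv.mulLeft z) _ _ fun w => ?_
      rw [← map_mul, Equiv.coe_mulLeft, _root_.mul_inv_rev, mul_comm' z, inv_mul_cancel_right]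
      rfl
    have he2 : ∀ y : P, e * y.1.1 = y.1.1 * e := by
      intro y
      simp only [e, Finset.mul_sum, Finset.sum_mul, mul_smul_comm, smul_mul_assoc]
      refine Finset.sum_congr rfl fun z _ => ?_
      rw [← Units.val_mul, ← Units.val_mul, z.2.2 y.1 y.2]
    have he0 : e ≠ 0 := by
      intro h0
      have h1 : e *ᵥ v = (Fintype.card Z : K) • v := by
        simp only [e, Matrix.sum_mulVec, smul_mulVec, hχ, smul_smul, ← map_mul, inv_mul_cancel, map_one,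
          one_smul, Finset.sum_const, Finset.card_univ, Nat.cast_smul_eq_nsmul]
      rw [h0, zero_mulVec, ← Nat.card_eq_fintype_card, hkz] at h1
      exact hv0 ((smul_eq_zero.1 h1.symm).resolve_left (by push_cast; exact pow_ne_zero _ hc))
    have li := indep (H := P) (ι := P ⧸ Zp)
      (fun y => (LinearMap.mulRight K (y⁻¹).1.1) ∘ₗ (LinearMap.mulLeft K y.1.1))
      (fun q => q.out.1.1 * e) (fun q => ψ q.out) (fun q q' h1 => by
        rw [← q.out_eq, ← q'.out_eq, Quotient.eq, QuotientGroup.leftRel_apply]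
        refine hnd (q.out⁻¹ * q'.out) fun y => ?_
        have h2 : ψ q.out y = ψ q'.out y := DFunLike.congr_fun h1 y
        rw [hψm, ← h2, ← hψm, inv_mul_cancel]
        exact hψ1 _ _ (by simp))
      (fun q h1 => he0 (by
        have := congrArg (fun M => (q.out⁻¹).1.1 * M) h1
        simpa [← mul_assoc] using this))
      (fun y q => by
        change y.1.1 * (q.out.1.1 * e) * (y⁻¹).1.1 = ψ q.out y • (q.out.1.1 * e)
        rw [mul_assoc, mul_assoc, he2, hψ, ← mul_smul_comm, ← he1, ← mul_assoc, ← mul_assoc,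
          ← mul_assoc, ← Units.val_mul, ← Units.val_mul, ← Units.val_mul]
        congr 2
        change y.1 * q.out.1 * y.1⁻¹ = q.out.1 * (q.out.1⁻¹ * y.1 * q.out.1 * y.1⁻¹)
        group)
    have h1 := li.fintype_card_le_finrank
    rw [Module.finrank_matrix, Module.finrank_self, Fintype.card_fin, ← Nat.card_eq_fintype_card] at h1
    change Zp.index ≤ _ at h1
    nlinarith
  have hcard : Nat.card Z * Zp.index = Nat.card P := by
    rw [← Zp.card_mul_index, Nat.card_congr (Subgroup.subgroupOfEquivOfLe (inf_le_left : Z ≤ P)).toEquiv]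
  have hmod : Zp.index % 11 = 1 := by
    haveI : Fact (Nat.Prime 11) := ⟨by norm_num⟩
    have hN : Subgroup.zpowers δ ≤ Subgroup.normalizer (P : Set (GL (Fin n) K)) :=
      Subgroup.zpowers_le.2 (Subgroup.mem_normalizer_fintype hδP)
    letI : MulAction (Subgroup.zpowers δ) P :=
      { smul := fun g x => ⟨g.1 * x.1 * g.1⁻¹, (Subgroup.mem_normalizer_iff.1 (hN g.2) x.1).1 x.2⟩
        one_smul := fun x => Subtype.ext (by change 1 * x.1 * 1⁻¹ = x.1; group)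
        mul_smul := fun g h x => Subtype.ext (by
          change g.1 * h.1 * x.1 * (g.1 * h.1)⁻¹ = g.1 * (h.1 * x.1 * h.1⁻¹) * g.1⁻¹; group) }
    have h71 : IsPGroup 11 (Subgroup.zpowers δ) := by
      rintro ⟨_, i, rfl⟩
      refine ⟨1, Subtype.ext ?_⟩
      change (δ ^ i) ^ 11 ^ 1 = 1
      rw [pow_one, ← zpow_natCast, ← _root_.zpow_mul, mul_comm, _root_.zpow_mul, zpow_natCast, hδ, _root_.one_zpow]
    have h1 := h71.card_modEq_card_fixedPoints P
    have hCZ : P ⊓ Subgroup.centralizer {δ} ≤ Z := by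
      refine sub _ (fun z hz => ⟨hz.1, ?_⟩) inf_le_left (fun e => hne ((e.ge hx0).2 δ rfl)) ?_
      · rintro _ rfl
        exact hZδ z hz
      · rintro x ⟨h1, h2⟩
        rw [h2 δ rfl, mul_inv_cancel_right]
        exact ⟨h1, h2⟩
    have e : MulAction.fixedPoints (Subgroup.zpowers δ) P ≃ Z :=
      { toFun := fun x => ⟨x.1.1, hCZ ⟨x.1.2, by
          intro d hd
          rw [Set.mem_singleton_iff.1 hd]
          have := congrArg Subtype.val (x.2 ⟨δ, Subgroup.mem_zpowers δ⟩)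
          exact mul_inv_eq_iff_eq_mul.1 this⟩⟩
        invFun := fun z => ⟨⟨z.1, z.2.1⟩, by
          rintro ⟨_, i, rfl⟩
          refine Subtype.ext ?_
          have hc' : Commute δ z.1 := hZδ z.1 z.2
          change δ ^ i * z.1 * (δ ^ i)⁻¹ = z.1
          rw [(hc'.zpow_left i).eq, mul_inv_cancel_right]⟩
        left_inv := fun _ => rfl
        right_inv := fun _ => rfl }
    rw [Nat.card_congr e, ← hcard] at h1
    have h2 : Nat.card Z * Zp.index ≡ Nat.card Z * 1 [MOD 11] := by rwa [mul_one]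
    exact Nat.ModEq.cancel_left_of_coprime (by
      rw [hkz]
      exact Nat.Coprime.pow_right _ ((Nat.coprime_primes (by norm_num) hl).2 h7.symm)) h2
  obtain ⟨j, hj⟩ := hP.index Zp
  have hi1 : Zp.index ≠ 1 := fun e => hZP (le_antisymm inf_le_left
    (Subgroup.subgroupOf_eq_top.1 (Subgroup.index_eq_one.1 e)))
  have two : ∀ p q : ℕ, p.Prime → q.Prime → p ≠ q → p ∣ Zp.index → q ∣ Zp.index → False := by
    intro p q hp hq hpq h1 h2
    rw [hj] at h1 h2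
    exact hpq (((Nat.prime_dvd_prime_iff_eq hp hl).1 (hp.dvd_of_dvd_pow h1)).trans
      ((Nat.prime_dvd_prime_iff_eq hq hl).1 (hq.dvd_of_dvd_pow h2)).symm)
  have hi12 : Zp.index ≠ 12 := fun e =>
    two 2 3 (by norm_num) (by norm_num) (by norm_num) (by rw [e]; norm_num) (by rw [e]; norm_num)
  have hi34 : Zp.index ≠ 34 := fun e =>
    two 2 17 (by norm_num) (by norm_num) (by norm_num) (by rw [e]; norm_num) (by rw [e]; norm_num)
  have h23 : Zp.index = 23 := by omega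
  let Kx : Subgroup P := (ψ ⟨x1, hx1⟩).toHomUnits.ker
  have hK : ∀ y, y ∈ Kx ↔ ψ ⟨x1, hx1⟩ y = 1 := fun y => by
    simp [Kx, MonoidHom.mem_ker, Units.ext_iff]
  have hle : Zp ≤ Kx := fun y hy => (hK y).2 (hψ1 _ y (hy.2 x1 hx1))
  have l1 : Zp < Kx := lt_of_le_of_ne hle fun e => by
    have h1 : (⟨x1, hx1⟩ : P) ∈ Zp := e ▸ (hK _).2 (hψ1 _ _ rfl)
    exact hxy1 (h1.2 y1 hy1).symm
  have a1 := two_index l1
  have a2 := Subgroup.index_dvd_of_le hle
  rw [h23] at a1 a2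
  rcases (Nat.dvd_prime (by norm_num : Nat.Prime 23)).1 a2 with h | h
  · rw [Subgroup.index_eq_one] at h
    exact hχ1 ((hK ⟨y1, hy1⟩).1 (h ▸ Subgroup.mem_top _))
  · omega

end Hh

variable {F : Type*} [Field F] [Fintype F]

theorem hh {n : ℕ} (hn : n ≤ 6) {l : ℕ} (hl : l.Prime) (h11 : l ≠ 11) (hc : (l : F) ≠ 0) (h11' : (11 : F) ≠ 0) {P : Subgroup (GL (Fin n) F)}
    (hP : IsPGroup l P) {δ : GL (Fin n) F} (hδ : δ ^ 11 = 1) (hn' : ∀ x ∈ P, δ * x * δ⁻¹ ∈ P) : ∀ x ∈ P, δ * x = x * δ := by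
  let f : GL (Fin n) F →* GL (Fin n) (AlgebraicClosure F) :=
    Matrix.GeneralLinearGroup.map (algebraMap F (AlgebraicClosure F))
  have hf : Function.Injective f := fun a b e => Units.ext (Matrix.ext fun i j =>
    (algebraMap F (AlgebraicClosure F)).injective
      (congrArg (fun g : GL (Fin n) (AlgebraicClosure F) => g.1 i j) e))
  intro x hx
  apply hf
  rw [map_mul, map_mul]
  refine Hh.main hn hl h11 (fun e => hc ((algebraMap F (AlgebraicClosure F)).injective (by simpa using e)))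
    (δ := f δ) (by rw [← map_pow, hδ, map_one]) _ (P.map f)
    (Finite.of_surjective (f.subgroupMap P) (f.subgroupMap_surjective P)) rfl (hP.map f) ?_ _ ⟨x, hx, rfl⟩
  rintro _ ⟨y, hy, rfl⟩
  exact ⟨_, hn' y hy, by simp⟩

end Cfsg.Agent.C11
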