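import Cfsg.Agent.C11.P2
import Cfsg.Agent.C11.Cen

/-! Homologies of odd prime order produce transvections. -/

set_option autoImplicit false
open Matrix

namespace Cfsg.Agent.C11

open Cfsg.Agent.H6 Cfsg.Agent.H6.Pg P2
open scoped MatrixGroups

variable {F : Type*} [Field F] {ζ : F} {G : Subgroup (GL (Fin 11) F)} {p : ℕ}

namespace Hom

theorem inB (h : Ctx ζ G) {μ c : F} (hc : 11 * c = μ - 1) (hm : In G (mH μ)) :
    In G (1 + of fun _ _ => c) := by
  obtain ⟨w', h1, h2, -⟩ := h.w.exists_inv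
  have e : (1 + of fun _ _ => c) * mW ζ = mW ζ * mH μ := by
    ext i j
    have := Cen.sum_ch h.prim j
    simp only [Cen.ch_mul h.prim.pow_eq_one] at this
    rw [add_mul, one_mul, mH, mul_diagonal, Matrix.add_apply, mul_apply]
    simp only [mW, of_apply, ← Finset.mul_sum, this]
    by_cases hj : j = 0
    · simp [hj]
      linear_combination hc
    · simp [hj]
  have := (h.w.mul hm).mul h1
  rwa [← e, mul_assoc, h2, mul_one] at this

theorem mH_pow (μ : F) (n : ℕ) : mH μ ^ n = mH (μ ^ n) := by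
  rw [mH, mH, diagonal_pow]
  congr 1
  funext i
  by_cases hi : i = 0 <;> simp [hi]

theorem nz' [Fintype F] (hF : FH F p) {r l : ℕ} (hr : r.Prime) (hl : l ∣ Fintype.card F - 1)
    (h1 : ¬ l ∣ r - 1 ∨ r % 11 ≠ 1) (h2 : ¬ l ∣ r ^ 5 - 1 ∨ r % 11 = 1) : (r : F) ≠ 0 := by
  obtain ⟨a1, a2, a3⟩ := hF
  rw [Ne, CharP.cast_eq_zero_iff F p, Nat.prime_dvd_prime_iff_eq a1 hr]
  rintro rfl
  rcases a3 with ⟨a, b⟩ | ⟨a, b⟩ <;> rw [a] at hl
  · tauto
  · rcases h2 with h2 | h2
    · exact h2 hl
    · omega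

/-- the conclusion in the exceptional case -/
def Key (μ : F) (l : ℕ) (x : F) : Prop :=
  (l = 3 ∨ l = 5) ∧ ∀ a b, 0 < b → b < l → ∀ t : F,
    (μ ^ a * (1 + (μ ^ b - 1) * x) + 1 + (μ ^ b - 1) * (1 - x)) ^ 2 = t * (μ ^ a * μ ^ b) →
      t = 0 ∨ t = 1 ∨ t = 2 ∨ t ^ 2 - 3 * t + 1 = 0

theorem pair [Fintype F] (hF : FH F p) {μ : F} {l : ℕ} (hl : l.Prime) (h3 : 3 ≤ l)
    (hμ : IsPrimitiveRoot μ l) {v φ v' φ' : Fin 11 → F} (e1 : φ ⬝ᵥ v = 1) (e2 : φ' ⬝ᵥ v' = 1)
    {x : F} (hx : (φ ⬝ᵥ v') * (φ' ⬝ᵥ v) = x) (x0 : x ≠ 0) (x1 : 1 - x ≠ 0)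
    (m1 : ∀ k : ℕ, In G (1 + (μ ^ k - 1) • vecMulVec v φ))
    (m2 : ∀ k : ℕ, In G (1 + (μ ^ k - 1) • vecMulVec v' φ')) : TVx G ∨ Key μ l x := by
  have := Fact.mk hF.1
  have := hF.2.1
  have μ0 : μ ≠ 0 := hμ.ne_zero (by omega)
  have hne : ∀ k, 0 < k → k < l → μ ^ k - 1 ≠ 0 := fun k a b =>
    sub_ne_zero.2 (hμ.pow_ne_one_of_pos_of_lt a.ne' b)
  obtain ⟨ha, hb⟩ := mul_ne_zero_iff.1 (hx ▸ x0)
  set α := φ ⬝ᵥ v' with hα
  set β := φ' ⬝ᵥ v with hβ
  let P : Matrix (Fin 11) (Fin 2) F := of fun r k => ![v, v' - α • v] k r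
  let Q : Matrix (Fin 2) (Fin 11) F := of ![φ, (1 - x)⁻¹ • (φ' - β • φ)]
  have hQ : Q * P = 1 := by
    ext i j
    have : (Q * P) i j = ![φ, (1 - x)⁻¹ • (φ' - β • φ)] i ⬝ᵥ ![v, v' - α • v] j := rfl
    rw [this]
    fin_cases i <;> fin_cases j <;> simp [e1, e2, ← hα, ← hβ]
    field_simp
    linear_combination -hx
  have dB : ∀ ν : F, (!![1 + (ν - 1) * x, (ν - 1) * α * (1 - x); (ν - 1) * β,
      1 + (ν - 1) * (1 - x)] : M2 F).det = ν := fun ν => by
    rw [det_fin_two_of]; linear_combination (-(ν - 1) ^ 2 * (1 - x)) * hx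
  have mA : ∀ k, pg !![μ ^ k, 0; 0, 1] ∈ MM G hQ ⊤ := fun k =>
    ⟨_, 1, by simp [μ0], trivial, rfl, Dm.one, by
      convert m1 k using 1
      ext r s
      simp [P2.em, P, Q, Matrix.mul_apply, Fin.sum_univ_two, vecMulVec_apply]
      ring⟩
  have mB : ∀ k, pg !![1 + (μ ^ k - 1) * x, (μ ^ k - 1) * α * (1 - x); (μ ^ k - 1) * β,
      1 + (μ ^ k - 1) * (1 - x)] ∈ MM G hQ ⊤ := fun k =>
    ⟨_, 1, by simp [dB, μ0, -det_fin_two_of], trivial, rfl, Dm.one, by
      convert m2 k using 1
      ext r s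
      simp [P2.em, P, Q, Matrix.mul_apply, Fin.sum_univ_two, vecMulVec_apply]
      field_simp
      linear_combination (-(μ ^ k - 1) * v r * φ s) * hx⟩
  have h1 := hne 1 (by omega) (by omega)
  have h2 : μ ^ 1 + 1 ≠ 0 := fun e => hne 2 (by omega) (by omega) (by
    linear_combination (μ - 1) * e)
  rcases dk p _ (by simp [μ0]) (by simp [dB, μ0, -det_fin_two_of]) (by simpa using h2)
    (fun e => h2 (by
      rw [trace_fin_two_of] at e
      linear_combination e))
    (by
      have : α * β * (1 - x) * (μ ^ 1 - 1) ^ 4 ≠ 0 := by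
        simp only [ne_eq, mul_eq_zero, pow_eq_zero_iff (four_ne_zero)]
        tauto
      intro e
      apply this
      rw [← e]
      simp [det_fin_two]
      ring) (mA 1) (mB 1) with H | ⟨k, L, hL, -⟩
  swap
  · exact Or.inl (big _ hL)
  refine Or.inr ⟨?_, fun a b b1 b2 t ht => ?_⟩
  · rcases ord_small H hμ μ0 (by simpa using mA 1) with e | e | e | e
    · have := Nat.le_of_dvd (by norm_num) e; omega
    · have := Nat.le_of_dvd (by norm_num) e; omega
    · have := Nat.le_of_dvd (by norm_num) e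
      interval_cases l
      · omega
      · exact absurd hl (by norm_num)
    · have := Nat.le_of_dvd (by norm_num) e
      interval_cases l <;> omega
  · have m := mul_mem (mA a) (mB b)
    have d1 : (!![μ ^ a, 0; 0, 1] : M2 F).det ≠ 0 := by simp [μ0]
    have d2 := (dB (μ ^ b)).trans_ne (pow_ne_zero b μ0)
    rw [pg_mul d1 d2] at m
    refine tau_small H (by rw [det_mul]; exact mul_ne_zero d1 d2) ?_ m ?_
    · have := hne b b1 b2
      simp [μ0, ha, x1, this]
    · rw [det_mul, dB]
      simp [trace_fin_two]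
      linear_combination ht

theorem inJ (h : Ctx ζ G) {μ : F} (hm : In G (mH μ)) (k : ℕ) :
    In G (1 + (μ ^ k - 1) • vecMulVec (fun _ => (1 : F)) fun _ => 11⁻¹) := by
  have n := Cen.el_ne h.prim
  convert inB h (μ := μ ^ k) (c := (μ ^ k - 1) * 11⁻¹) (by field_simp)
    (by rw [← mH_pow]; exact hm.pow k) using 2
  ext r s
  simp [vecMulVec_apply]

theorem pair1 [Fintype F] (hF : FH F p) (h : Ctx ζ G) {μ : F} {l : ℕ} (hl : l.Prime) (h3 : 3 ≤ l)
    (hμ : IsPrimitiveRoot μ l) (hm : In G (mH μ)) (n10 : (10 : F) ≠ 0) :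
    TVx G ∨ Key μ l 11⁻¹ := by
  have n := Cen.el_ne h.prim
  refine pair hF hl h3 hμ (v := Pi.single 0 1) (φ := Pi.single 0 1) (v' := fun _ => 1)
    (φ' := fun _ => 11⁻¹) (by simp) (by simp [dotProduct, n]) (by simp) (inv_ne_zero n)
    (fun e => n10 (by field_simp at e; linear_combination e)) (fun k => ?_) (inJ h hm)
  convert hm.pow k using 1
  rw [mH_pow]
  ext r s
  by_cases hr : r = 0 <;> by_cases hs : s = 0 <;>
    simp [mH, vecMulVec_apply, diagonal_apply, one_apply, hr, hs, eq_comm]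

theorem pair2 [Fintype F] (hF : FH F p) (h : Ctx ζ G) {μ : F} {l : ℕ} (hl : l.Prime) (h3 : 3 ≤ l)
    (hμ : IsPrimitiveRoot μ l) (hm : In G (mH μ)) {x : F}
    (hx : 121 * x = 85 + 18 * (μ + μ⁻¹)) (x0 : x ≠ 0) (x1 : 1 - x ≠ 0) : TVx G ∨ Key μ l x := by
  have n := Cen.el_ne h.prim
  have μ0 : μ ≠ 0 := hμ.ne_zero (by omega)
  have h1 : In G (diagonal fun i => if i = 1 then μ else 1) := by
    obtain ⟨b', b1, b2, -⟩ := h.b.exists_inv
    have e : mB F * mH μ = (diagonal fun i => if i = 1 then μ else 1) * mB F := by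
      ext r s
      rw [mH, mul_diagonal, diagonal_mul]
      by_cases hr : r = s + 1
      · subst hr
        simp [mB]
      · simp [mB, hr]
    have := (h.b.mul hm).mul b1
    rwa [e, mul_assoc, b2, mul_one] at this
  have h2 := hm.mul h1
  rw [mH, diagonal_mul_diagonal] at h2
  set f : Fin 11 → F := fun i => (if i = 0 then μ else 1) * if i = 1 then μ else 1 with hf
  have f0 : ∀ i, f i ≠ 0 := fun i => by
    simp only [hf]
    split_ifs <;> simp [μ0]
  refine pair hF hl h3 hμ (v := fun _ => 1) (φ := fun _ => 11⁻¹) (v' := f)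
    (φ' := fun i => 11⁻¹ * (f i)⁻¹) (by simp [dotProduct, n])
    (by simp [dotProduct, mul_assoc, f0, n]) ?_ x0 x1 (inJ h hm) fun k => ?_
  · simp [dotProduct, hf, Fin.sum_univ_succ]
    field_simp
    field_simp at hx
    linear_combination -hx
  · obtain ⟨d', d1, d2, -⟩ := h2.exists_inv
    have e : diagonal f * (1 + (μ ^ k - 1) • vecMulVec (fun _ => (1 : F)) fun _ => 11⁻¹) =
        (1 + (μ ^ k - 1) • vecMulVec f fun i => 11⁻¹ * (f i)⁻¹) * diagonal f := by
      ext r s
      rw [mul_diagonal, diagonal_mul]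
      have := f0 s
      by_cases hr : r = s
      · subst hr
        simp [vecMulVec_apply]
        field_simp
      · simp [vecMulVec_apply, hr]
        field_simp
    have := (h2.mul (inJ h hm k)).mul d1
    rwa [e, mul_assoc, d2, mul_one] at this

theorem l9 [Fintype F] (hF : FH F p) (h : Ctx ζ G) {μ : F} (hμ : IsPrimitiveRoot μ 5)
    (hm : In G (mH μ)) (hy : μ + μ ^ 4 = -9) (c : (71 : F) = 0) : TVx G := by
  have n := Cen.el_ne h.prim
  have g5 := hμ.pow_eq_one
  have c' : ((71 : ℕ) : F) = 0 := by exact_mod_cast c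
  have hi : μ⁻¹ = μ ^ 4 := inv_eq_of_mul_eq_one_right (by linear_combination g5)
  refine (pair2 hF h (by norm_num) (by norm_num) hμ hm (x := -7 / 11) (by
    rw [hi, hy]; field_simp; norm_num) (fun e => cop (a := 7) (by norm_num) (by
      field_simp at e; push_cast; linear_combination -e) c') (fun e => cop (a := 18)
        (by norm_num) (by field_simp at e; push_cast; linear_combination e) c')).resolve_right
    fun ⟨_, K⟩ => ?_
  rcases K 1 4 (by norm_num) (by norm_num) 256 (by
    have e : μ ^ 1 * (1 + (μ ^ 4 - 1) * (-7 / 11)) + 1 + (μ ^ 4 - 1) * (1 - -7 / 11) = -16 := by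
      field_simp
      linear_combination 18 * hy - 7 * g5
    rw [e]
    linear_combination (-256) * g5) with e | e | e | e
  · exact cop (a := 256) (by norm_num) (by push_cast; linear_combination e) c'
  · exact cop (a := 255) (by norm_num) (by push_cast; linear_combination e) c'
  · exact cop (a := 254) (by norm_num) (by push_cast; linear_combination e) c'
  · exact cop (a := 64769) (by norm_num) (by push_cast; linear_combination e) c'

end Hom

open Hom in
theorem hom [Fintype F] (hF : FH F p) (hp : p ≠ 2) (h : Ctx ζ G) {μ : F} {l : ℕ} (hl : l.Prime)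
    (h3 : 3 ≤ l) (hμ : IsPrimitiveRoot μ l) (hm : In G (mH μ)) : TVx G := by
  have := hF.2.1
  have n2 : (2 : F) ≠ 0 := by exact_mod_cast nz hF Nat.prime_two (by omega)
  have n11 : (11 : F) ≠ 0 := Cen.el_ne h.prim
  have μ0 : μ ≠ 0 := hμ.ne_zero (by omega)
  have hd : l ∣ Fintype.card F - 1 :=
    hμ.dvd_of_pow_eq_one _ (FiniteField.pow_card_sub_one_eq_one μ μ0)
  by_cases p5 : p = 5
  · subst p5
    have c5 : (5 : F) = 0 := by exact_mod_cast CharP.cast_eq_zero F 5
    have hc : Fintype.card F = 3125 := by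
      rcases hF.2.2 with h | h <;> omega
    have n3 : (3 : F) ≠ 0 := fun e => n2 (by linear_combination c5 - e)
    rw [hc] at hd
    refine (pair2 hF h hl h3 hμ hm (x := 3 * (μ + μ⁻¹))
      (by linear_combination (69 * (μ + μ⁻¹) - 17) * c5) (mul_ne_zero n3 fun e => ?_)
      fun e => ?_).resolve_right fun ⟨K, _⟩ => by rcases K with rfl | rfl <;> omega
    · have e4 : μ ^ 4 = 1 := by
        field_simp at e
        linear_combination (μ ^ 2 - 1) * e
      have := Nat.le_of_dvd (by norm_num) (hμ.dvd_of_pow_eq_one _ e4)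
      interval_cases l
      · omega
      · exact absurd hl (by norm_num)
    · have e1 : 3 * (μ - 1) ^ 2 = 0 := by
        field_simp at e
        linear_combination -e - μ * c5
      have := pow_eq_zero_iff (two_ne_zero) |>.1 ((mul_eq_zero.1 e1).resolve_left n3)
      exact hμ.ne_one (by omega) (sub_eq_zero.1 this)
  have n5 : (5 : F) ≠ 0 := by exact_mod_cast nzp (F := F) hF.1 Nat.prime_five p5
  have n10 : (10 : F) ≠ 0 := by
    rw [show (10 : F) = 2 * 5 by norm_num]; exact mul_ne_zero n2 n5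
  have n121 : (121 : F) ≠ 0 := by
    rw [show (121 : F) = 11 * 11 by norm_num]; exact mul_ne_zero n11 n11
  by_contra hT
  obtain ⟨hl', key⟩ := (pair1 hF h hl h3 hμ hm n10).resolve_left hT
  rcases hl' with rfl | rfl
  · have g := hμ.geom_sum_eq_zero (by norm_num)
    simp only [Finset.sum_range_succ, Finset.sum_range_zero] at g
    have g3 := hμ.pow_eq_one
    have n3 : (3 : F) ≠ 0 := by
      exact_mod_cast nz' hF (r := 3) (by norm_num) hd (by norm_num) (by norm_num)
    have n19 : (19 : F) ≠ 0 := by exact_mod_cast nz hF (r := 19) (by norm_num) (by omega)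
    have n29 : (29 : F) ≠ 0 := by exact_mod_cast nz hF (r := 29) (by norm_num) (by omega)
    have n89 : (89 : F) ≠ 0 := by
      exact_mod_cast nz' hF (r := 89) (by norm_num) hd (by norm_num) (by norm_num)
    have c : ((31 : ℕ) : F) = 0 := by
      rcases key 1 2 (by norm_num) (by norm_num) (64 / 121) (by
        have e : μ ^ 1 * (1 + (μ ^ 2 - 1) * 11⁻¹) + 1 + (μ ^ 2 - 1) * (1 - 11⁻¹) = -8 / 11 := by
          field_simp
          linear_combination 10 * g + g3
        rw [e]
        field_simp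
        linear_combination (-7744) * g3) with e | e | e | e <;> field_simp at e
      · exact absurd (by linear_combination e) (pow_ne_zero 6 n2)
      · exact absurd (by linear_combination -e) (mul_ne_zero n3 n19)
      · exact absurd (by linear_combination -e) (mul_ne_zero n2 n89)
      · push_cast
        exact (mul_eq_zero.1 (show 5 * 29 * (31 : F) = 0 by linear_combination -e)).resolve_left
          (mul_ne_zero n5 n29)
    have hi : μ⁻¹ = μ ^ 2 := inv_eq_of_mul_eq_one_right (by linear_combination g3)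
    obtain ⟨-, K⟩ := (pair2 hF h hl h3 hμ hm (x := 67 / 121) (by
      rw [hi]; field_simp; linear_combination (-18) * g) (fun e => cop (a := 67) (by norm_num) (by
        field_simp at e; push_cast; linear_combination e) c) (fun e => cop (a := 54)
          (by norm_num) (by field_simp at e; push_cast; linear_combination e) c)).resolve_left hT
    rcases K 1 2 (by norm_num) (by norm_num) ((80 / 121) ^ 2) (by
      have e : μ ^ 1 * (1 + (μ ^ 2 - 1) * (67 / 121)) + 1 + (μ ^ 2 - 1) * (1 - 67 / 121) =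
          80 / 121 := by
        field_simp
        linear_combination 54 * g + 67 * g3
      rw [e]
      linear_combination (-(80 / 121) ^ 2) * g3) with e | e | e | e <;> field_simp at e
    · exact cop (a := 6400) (by norm_num) (by push_cast; linear_combination e) c
    · exact cop (a := 8241) (by norm_num) (by push_cast; linear_combination -e) c
    · exact cop (a := 22882) (by norm_num) (by push_cast; linear_combination -e) c
    · exact cop (a := 25788319) (by norm_num) (by push_cast; linear_combination -e) c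
  · have g := hμ.geom_sum_eq_zero (by norm_num)
    simp only [Finset.sum_range_succ, Finset.sum_range_zero] at g
    have g5 := hμ.pow_eq_one
    have n3 : (3 : F) ≠ 0 := by
      exact_mod_cast nz' hF (r := 3) (by norm_num) hd (by norm_num) (by norm_num)
    have n89 : (89 : F) ≠ 0 := by
      exact_mod_cast nz' hF (r := 89) (by norm_num) hd (by norm_num) (by norm_num)
    have n379 : (379 : F) ≠ 0 := by
      exact_mod_cast nz' hF (r := 379) (by norm_num) hd (by norm_num) (by norm_num)
    have n929 : (929 : F) ≠ 0 := by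
      exact_mod_cast nz' hF (r := 929) (by norm_num) hd (by norm_num) (by norm_num)
    have k5 : ∀ y : F, y ^ 2 + y - 1 = 0 → ∀ t : F, 121 * t = (20 + y) ^ 2 →
        (t = 0 ∨ t = 1 ∨ t = 2 ∨ t ^ 2 - 3 * t + 1 = 0) → ((71 : F) = 0 ∧ y = -9) ∨
          ((71 : F) = 0 ∧ 78 * y + 157 = 0) ∨ ((1951 : F) = 0 ∧ 13 * y + 53 = 0) :=
      fun y hy t ht e => by
      rcases e with e | e | e | e
      · have : 20 + y = 0 := pow_eq_zero_iff (two_ne_zero) |>.1 (by rw [← ht, e, mul_zero])
        exact absurd (by linear_combination hy - (y - 19) * this) n379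
      · have : (y + 9) * (y + 31) = 0 := by linear_combination -ht + 121 * e
        rcases mul_eq_zero.1 this with a | a
        · exact Or.inl ⟨by linear_combination hy - (y - 8) * a, by linear_combination a⟩
        · exact absurd (by linear_combination hy - (y - 30) * a) n929
      · have : 3 * (13 * y + 53) = 0 := by linear_combination -ht + 121 * e - hy
        have := (mul_eq_zero.1 this).resolve_left n3
        exact Or.inr (Or.inr ⟨by linear_combination 169 * hy - (13 * y - 40) * this, this⟩)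
      · have ht' : 121 * t = 39 * y + 401 := by linear_combination ht + hy
        have : 2 ^ 3 * 5 ^ 2 * (78 * y + 157) = 0 := by
          linear_combination 14641 * e - (121 * t + (39 * y + 401) - 363) * ht' - 1521 * hy
        have := (mul_eq_zero.1 this).resolve_left
          (mul_ne_zero (pow_ne_zero 3 n2) (pow_ne_zero 2 n5))
        exact Or.inr (Or.inl ⟨(mul_eq_zero.1 (show (89 : F) * 71 = 0 by
          linear_combination 6084 * hy - (78 * y - 79) * this)).resolve_left n89, this⟩)
    have y1 : (μ + μ ^ 4) ^ 2 + (μ + μ ^ 4) - 1 = 0 := by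
      linear_combination g + (μ ^ 3 + 2) * g5
    have y2 : (μ ^ 2 + μ ^ 3) ^ 2 + (μ ^ 2 + μ ^ 3) - 1 = 0 := by
      linear_combination g + (μ + 2) * g5
    have a1 := k5 _ y1 (((20 + (μ + μ ^ 4)) / 11) ^ 2) (by field_simp; ring)
      (key 1 1 (by norm_num) (by norm_num) _ (by
        have e : μ ^ 1 * (1 + (μ ^ 1 - 1) * 11⁻¹) + 1 + (μ ^ 1 - 1) * (1 - 11⁻¹) =
            μ * ((20 + (μ + μ ^ 4)) / 11) := by
          field_simp
          linear_combination -g5
        rw [e]
        ring))
    have a2 := k5 _ y2 (((20 + (μ ^ 2 + μ ^ 3)) / 11) ^ 2) (by field_simp; ring)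
      (key 2 2 (by norm_num) (by norm_num) _ (by
        have e : μ ^ 2 * (1 + (μ ^ 2 - 1) * 11⁻¹) + 1 + (μ ^ 2 - 1) * (1 - 11⁻¹) =
            μ ^ 2 * ((20 + (μ ^ 2 + μ ^ 3)) / 11) := by
          field_simp
          linear_combination -g5
        rw [e]
        ring))
    rcases a1 with ⟨c, a1⟩ | a1
    · exact hT (l9 hF h hμ hm a1 c)
    rcases a2 with ⟨c, a2⟩ | a2
    · exact hT (l9 hF h (hμ.pow_of_coprime 2 (by norm_num)) (by rw [← mH_pow]; exact hm.pow 2)
        (by linear_combination a2 + μ ^ 3 * g5) c)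
    rcases a1 with ⟨c, a1⟩ | ⟨c, a1⟩ <;> rcases a2 with ⟨c', a2⟩ | ⟨c', a2⟩
    · exact cop (F := F) (a := 236) (b := 71) (by norm_num)
        (by push_cast; linear_combination a1 + a2 - 78 * g) (by exact_mod_cast c)
    · exact cop (F := F) (a := 71) (b := 1951) (by norm_num) (by exact_mod_cast c)
        (by exact_mod_cast c')
    · exact cop (F := F) (a := 71) (b := 1951) (by norm_num) (by exact_mod_cast c')
        (by exact_mod_cast c)
    · exact cop (F := F) (a := 93) (b := 1951) (by norm_num)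
        (by push_cast; linear_combination a1 + a2 - 13 * g) (by exact_mod_cast c)

end Cfsg.Agent.C11
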