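import Cfsg.Agent.C11.Defs

set_option autoImplicit false
open Matrix

namespace Cfsg.Agent.C11
namespace K5a

variable {F : Type*} [Field F] {ζ : F} {G : Subgroup (GL (Fin 11) F)}

/-- monomial matrices -/
def sp (σ : Fin 11 → Fin 11) (u : Fin 11 → F) : Mt F := of fun i j => if j = σ i then u i else 0

theorem sp_mul (σ τ : Fin 11 → Fin 11) (u v : Fin 11 → F) :
    sp σ u * sp τ v = sp (fun i => τ (σ i)) fun i => u i * v (σ i) := by
  ext i j
  simp only [sp, mul_apply, of_apply, ite_mul, zero_mul, Finset.sum_ite_eq', Finset.mem_univ, if_true]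
  simp only [mul_ite, mul_zero]

theorem sp_congr {σ τ : Fin 11 → Fin 11} {u v : Fin 11 → F} (h1 : ∀ i, σ i = τ i) (h2 : ∀ i, u i = v i) :
    sp σ u = sp τ v := by
  rw [funext h1, funext h2]

theorem sp_id (u : Fin 11 → F) : sp (fun i => i) u = diagonal u := by
  ext i j
  simp [sp, diagonal_apply, eq_comm]

theorem mM_sp : mM F = sp (fun i => 6 * i) fun _ => 1 := by
  have e : ∀ i j : Fin 11, i = 2 * j ↔ j = 6 * i := by decide
  ext i j
  simp only [mM, sp, of_apply, e]

theorem mB_sp : mB F = sp (fun i => i - 1) fun _ => 1 := by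
  have e : ∀ i j : Fin 11, i = j + 1 ↔ j = i - 1 := by decide
  ext i j
  simp only [mB, sp, of_apply, e]

/-- signs -/
def sg (F : Type*) [Field F] (b : Bool) : F := if b then -1 else 1
/-- reflected index -/
def rf (ε : Fin 11 → Bool) (i : Fin 11) : Fin 11 := if ε i then -i else i
/-- sign patterns -/
def q (F : Type*) [Field F] (ε : Fin 11 → Bool) : Mt F := sp (rf ε) fun i => sg F (ε i)

theorem sg_xor (a b : Bool) : sg F a * sg F b = sg F (xor a b) := by
  cases a <;> cases b <;> simp [sg]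

theorem ev_rf {a b : Fin 11 → Bool} (hb : ∀ i, b (-i) = b i) (i : Fin 11) : b (rf a i) = b i := by
  unfold rf
  split_ifs
  exacts [hb i, rfl]

theorem q_mul (a : Fin 11 → Bool) {b : Fin 11 → Bool} (hb : ∀ i, b (-i) = b i) :
    q F a * q F b = q F fun i => xor (a i) (b i) := by
  rw [q, q, sp_mul]
  refine sp_congr (fun i => ?_) fun i => by rw [ev_rf hb, sg_xor]
  rw [rf, ev_rf hb]
  unfold rf
  cases h1 : a i <;> cases h2 : b i <;> simp [h1, h2]

theorem q_M (a : Fin 11 → Bool) : q F a * mM F = mM F * q F fun i => a (2 * i) := by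
  have e : ∀ i : Fin 11, 2 * (6 * i) = i := by decide
  have e' : ∀ i : Fin 11, 6 * (-i) = -(6 * i) := by decide
  rw [mM_sp, q, q, sp_mul, sp_mul]
  refine sp_congr (fun i => ?_) fun i => by simp only [e, mul_one, one_mul]
  simp only [rf, e]
  split_ifs
  exacts [e' i, rfl]

theorem q_true : q F (fun _ => true) = -mT F := by
  ext i j
  have e : ∀ i j : Fin 11, j = -i ↔ i = -j := by decide
  simp only [q, sp, rf, sg, mT, of_apply, Matrix.neg_apply, if_true, e i j]
  split_ifs <;> simp

theorem q_false : q F (fun _ => false) = 1 := by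
  rw [← diagonal_one, ← sp_id]
  exact sp_congr (fun i => by simp [rf]) fun i => by simp [sg]

theorem q_zero : q F (fun i => decide (i = 0)) = mH (-1) := by
  rw [mH, ← sp_id]
  exact sp_congr (by decide) fun i => by simp [sg]

theorem no_one (h2 : (2 : F) ≠ 0) (h : Ctx ζ G) (hD : DG G)
    (hf : In G (q F fun i => decide (i = 0 ∨ i = 1 ∨ i = 10))) : False := by
  have hb := h.b
  have hb' : In G (sp (fun i => i + 1) fun _ => (1 : F)) := hb.inv (by
    rw [mB_sp, sp_mul, ← diagonal_one, ← sp_id]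
    exact sp_congr (fun i => by simp) fun i => by simp)
  rw [mB_sp] at hb
  have e1 := (hb.mul hf).mul hb'
  have e3 := hf.mul ((e1.mul hf).mul e1)
  simp only [q, sp_mul] at e3
  rw [sp_congr (τ := fun i => i) (by decide) (fun _ => rfl), sp_id] at e3
  obtain ⟨c, hc⟩ := hD _ e3
  have a0 := hc 0
  have a3 := hc 3
  simp +decide only [one_mul, mul_one, sg_xor] at a0 a3
  change sg F true ^ 11 = c at a0
  change sg F false ^ 11 = c at a3
  simp [sg] at a0 a3
  apply h2
  linear_combination a3 - a0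

theorem comb (P : (Fin 11 → Bool) → Prop) (hx : ∀ a b, P a → P b → P fun i => xor (a i) (b i))
    (hr : ∀ a, P a → P fun i => a (2 * i)) (ht : P fun _ => true)
    (h0 : ¬ P fun i => decide (i = 0)) (h1 : ¬ P fun i => decide (i = 0 ∨ i = 1 ∨ i = 10))
    {ε : Fin 11 → Bool} (he : ∀ i, ε (-i) = ε i) (h : P ε) :
    (ε = fun _ => false) ∨ ε = fun _ => true := by
  have ha : ∀ (c : Bool) a, P a → P fun i => c && a i := by
    intro c a ha
    cases c
    · simpa using hx _ _ ht ht
    · simpa using ha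
  have key : ∀ g a b c d e : Bool, ∀ ε : Fin 11 → Bool, ε = ![g, a, b, c, d, e, e, d, c, b, a] →
      (∀ i, ε i = false) ∨ (∀ i, ε i = true) ∨ ∃ c0 c1 c2 c3 c4 n : Bool,
      (∀ i, xor (xor (xor (xor (xor (c0 && ε i) (c1 && ε (2 * i))) (c2 && ε (2 * (2 * i))))
        (c3 && ε (2 * (2 * (2 * i))))) (c4 && ε (2 * (2 * (2 * (2 * i)))))) (n && true) = decide (i = 0)) ∨
      (∀ i, xor (xor (xor (xor (xor (c0 && ε i) (c1 && ε (2 * i))) (c2 && ε (2 * (2 * i))))
        (c3 && ε (2 * (2 * (2 * i))))) (c4 && ε (2 * (2 * (2 * (2 * i)))))) (n && true) =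
          decide (i = 0 ∨ i = 1 ∨ i = 10)) := by
    intro g a b c d e ε hε
    subst hε
    revert g a b c d e
    decide +kernel
  rcases key (ε 0) (ε 1) (ε 2) (ε 3) (ε 4) (ε 5) ε (by
    funext i
    fin_cases i
    exacts [rfl, rfl, rfl, rfl, rfl, rfl, he 5, he 4, he 3, he 2, he 1]) with e | e | ⟨c0, c1, c2, c3, c4, n, e⟩
  · exact Or.inl (funext e)
  · exact Or.inr (funext e)
  have r1 := hr _ h
  have r2 := hr _ r1
  have r3 := hr _ r2
  have r4 := hr _ r3
  have s := hx _ _ (hx _ _ (hx _ _ (hx _ _ (hx _ _ (ha c0 _ h) (ha c1 _ r1)) (ha c2 _ r2)) (ha c3 _ r3))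
    (ha c4 _ r4)) (ha n _ ht)
  rcases e with e | e <;> rw [funext e] at s
  exacts [(h0 s).elim, (h1 s).elim]

theorem q_cases (h2 : (2 : F) ≠ 0) (h : Ctx ζ G) (hh : ∀ μ : F, In G (mH μ) → μ = 1) (hD : DG G)
    {ε : Fin 11 → Bool} (he : ∀ i, ε (-i) = ε i) (hf : In G (q F ε)) : q F ε = 1 ∨ q F ε = -mT F := by
  rcases comb (fun a => (∀ i, a (-i) = a i) ∧ In G (q F a))
    (fun a b ha hb => ⟨fun i => by simp only [ha.1, hb.1], q_mul (F := F) a hb.1 ▸ ha.2.mul hb.2⟩)
    (fun a ha => ⟨fun i => by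
      have e : ∀ i : Fin 11, 2 * -i = -(2 * i) := by decide
      simp only [e, ha.1], by
      obtain ⟨M', h1, -, h3⟩ := h.m.exists_inv
      have := (h1.mul ha.2).mul h.m
      rwa [mul_assoc, q_M, ← mul_assoc, h3, one_mul] at this⟩)
    ⟨fun _ => rfl, by
      rw [q_true, ← neg_one_smul F]
      exact h.smul h.t (by simp)⟩
    (fun h0 => h2 (by
      have := hh _ (q_zero (F := F) ▸ h0.2)
      linear_combination -this))
    (fun h1 => no_one h2 h hD h1.2) he ⟨he, hf⟩ with e | e <;> rw [e]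
  exacts [Or.inl q_false, Or.inr q_true]

theorem cd (h2 : (2 : F) ≠ 0) (h : Ctx ζ G) (hh : ∀ μ : F, In G (mH μ) → μ = 1) (hD : DG G)
    (hG : GM ζ G) {y : Mt F} (hy : In G y) (ht : y * mT F = mT F * y)
    (h3 : y * (1 - mT F) = 1 - mT F) (hd : y * mD ζ = mD ζ * y) : y = 1 ∨ y = -mT F := by
  classical
  have z : ∀ i j : Fin 11, j ≠ i → j ≠ -i → y i j = 0 := by
    intro i j h1 h1'
    have e := congrFun (congrFun hd i) j
    simp only [mD, mul_diagonal, diagonal_mul] at e
    by_contra hne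
    rw [mul_comm] at e
    have e' := mul_right_cancel₀ hne e
    have m7 : ∀ k : ℕ, ζ ^ k = ζ ^ (k % 11) := fun k => by
      conv_lhs => rw [← Nat.div_add_mod k 11, pow_add, pow_mul, h.prim.pow_eq_one, one_pow, one_mul]
    rw [m7, m7 ((i : ℕ) ^ 2)] at e'
    have e'' := h.prim.pow_inj (Nat.mod_lt _ (by norm_num)) (Nat.mod_lt _ (by norm_num)) e'
    clear e e' hne
    revert i j
    decide
  have yT : ∀ i j, (y * mT F) i j = y i (-j) := fun i j => by simp [mT, mul_apply]
  have s : ∀ i j : Fin 11, y i (-j) = y (-i) j := by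
    intro i j
    rw [← yT, ht]
    simp only [mT, mul_apply, of_apply]
    rw [Finset.sum_eq_single (-i)] <;> simp +contextual [eq_comm (a := i), neg_eq_iff_eq_neg]
  have nn : ∀ i : Fin 11, i ≠ 0 → i ≠ -i := by decide
  have n0 : ∀ i : Fin 11, i ≠ 0 → -i ≠ 0 := by decide
  have k : ∀ i : Fin 11, i ≠ 0 → y i i - y i (-i) = 1 := by
    intro i hi
    have e := congrFun (congrFun h3 i) i
    rw [mul_sub, mul_one, Matrix.sub_apply, yT] at e
    simpa [mT, nn i hi] using e
  let ε : Fin 11 → Bool := fun i => decide (y i i ≠ 1)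
  have he : ∀ i, ε (-i) = ε i := fun i => by
    simp only [ε]
    rw [s, neg_neg]
  have e : y = sp (rf ε) fun i => if i = 0 then y 0 0 else sg F (ε i) := by
    ext i j
    simp only [sp, of_apply, rf, sg, ε]
    by_cases hi : i = 0
    · subst hi
      by_cases hj : j = 0
      · simp [hj]
      · simp [hj, z 0 j hj (by simpa using hj)]
    have k1 := k i hi
    rcases hG y hy hd i hi with h4 | h4
    · have h5 : y i i = 1 := by linear_combination k1 + h4.1
      by_cases hj : j = i
      · simp [hj, h5, hi]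
      by_cases hj' : j = -i
      · simp [hj', h5, h4.1, (nn i hi).symm]
      · simp [hj, h5, z i j hj hj']
    · have h5 : y i (-i) = -1 := by linear_combination h4.1 - k1
      by_cases hj' : j = -i
      · simp [hj', h5, hi, h4.1]
      by_cases hj : j = i
      · simp [hj, h4.1, nn i hi]
      · simp [hj', h4.1, z i j hj hj']
  have r0 : ∀ i, rf ε i = 0 ↔ i = 0 := fun i => by
    unfold rf
    split_ifs <;> simp
  have e2 : y * y = mH (y 0 0 * y 0 0) := by
    conv_lhs => rw [e]
    rw [sp_mul, mH, ← sp_id]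
    refine sp_congr (fun i => ?_) fun i => ?_
    · rw [rf, ev_rf he]
      unfold rf
      cases h1 : ε i <;> simp [h1]
    · simp only [r0, ev_rf he]
      split_ifs
      · rfl
      · rw [sg_xor]; simp [sg]
  have e3 := hh _ (e2 ▸ hy.mul hy)
  have e4 : y = q F ε := by
    rw [q]
    conv_lhs => rw [e]
    refine sp_congr (fun _ => rfl) fun i => ?_
    split_ifs with hi
    · subst hi
      rcases mul_self_eq_one_iff.1 e3 with h4 | h4
      · simp [sg, ε, h4]
      · have : (-1 : F) ≠ 1 := fun e => h2 (by linear_combination -e)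
        simp [sg, ε, h4, this]
    · rfl
  rw [e4]
  exact q_cases h2 h hh hD he (e4 ▸ hy)

end K5a
end Cfsg.Agent.C11
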