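import Cfsg.Agent.C11.Defs
import Cfsg.Agent.Asch.Linear

set_option autoImplicit false
open Matrix

namespace Cfsg.Agent.C11

open Cfsg.Geo Cfsg.Agent.Asch

variable {F : Type*} [Field F]

/-- the group induced on the five-dimensional eigenspace -/
structure H5 (ζ : F) (H : Subgroup (GL (Fin 5) F)) (δ ω μ : GL (Fin 5) F) : Prop where
  prim : IsPrimitiveRoot ζ 11
  sc : scalars (Fin 5) F ≤ H
  hδ : δ ∈ H
  hω : ω ∈ H
  hμ : μ ∈ H
  d : δ.1 = diagonal fun i : Fin 5 => ζ ^ (((i : ℕ) + 1) ^ 2)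
  w : ∀ i j, ω.1 i j ≠ 0
  ww : ω.1 * ω.1 = (-11 : F) • (1 : Matrix (Fin 5) (Fin 5) F)
  m : μ * δ * μ⁻¹ = δ ^ 3
  c : ∀ x ∈ H, x * δ = δ * x → x ^ 22 ∈ scalars (Fin 5) F

/-- a quasisimple absolutely irreducible normal subgroup -/
structure QS (H P : Subgroup (GL (Fin 5) F)) : Prop where
  le : P ≤ H
  norm : GNorms H P
  perf : ⁅P, P⁆ = P
  min : MinN P P
  abs : AbsIrr P

end Cfsg.Agent.C11
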