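import Cfsg.Agent.C11.Span

set_option autoImplicit false
open Matrix

namespace Cfsg.Agent.C11

variable {F : Type*} [Field F] {ζ : F} {G : Subgroup (GL (Fin 11) F)}

namespace Syl
open Cen C11.Span Fin.CommRing

/-- monomial with cyclic shift `k` and eleventh roots of unity as entries -/
def Mo (k : Fin 11) (x : Mt F) : Prop :=
  ∀ r c, (r = c + k → x r c ^ 11 = 1) ∧ (r ≠ c + k → x r c = 0)

theorem Mo.mul {k l : Fin 11} {x y : Mt F} (hx : Mo k x) (hy : Mo l y) : Mo (l + k) (x * y) := by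
  intro r c
  have e : (x * y) r c = x r (c + l) * y (c + l) c := by
    rw [mul_apply, Finset.sum_eq_single (c + l)]
    · intro b _ hb; rw [(hy b c).2 hb, mul_zero]
    · simp
  rw [e, ← add_assoc]
  exact ⟨fun h => by rw [mul_pow, (hx _ _).1 h, (hy _ _).1 rfl, one_mul],
    fun h => by rw [(hx _ _).2 h, zero_mul]⟩

theorem Mo.diag {f : Fin 11 → F} (hf : ∀ i, f i ^ 11 = 1) : Mo 0 (diagonal f) := fun r c =>
  ⟨fun h => by rw [h, add_zero, diagonal_apply_eq, hf], fun h => diagonal_apply_ne _ (by simpa using h)⟩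

theorem Mo.one : Mo 0 (1 : Mt F) := Mo.diag (f := fun _ => 1) fun _ => one_pow _

theorem Mo.pow {k : Fin 11} {x : Mt F} (hx : Mo k x) (n : ℕ) : Mo (n • k) (x ^ n) := by
  induction n with
  | zero => simpa using Mo.one
  | succ n ih => rw [pow_succ, succ_nsmul']; exact ih.mul hx

theorem Mo.pow121 {k : Fin 11} {x : Mt F} (hx : Mo k x) : x ^ 121 = 1 := by
  have h := hx.pow 11
  have k7 : ∀ k : Fin 11, 11 • k = 0 := by decide +kernel
  rw [k7] at h
  have e : x ^ 11 = diagonal fun i => (x ^ 11) i i := by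
    ext r c
    by_cases e : r = c
    · rw [e, diagonal_apply_eq]
    · rw [diagonal_apply_ne _ e, (h r c).2 (by simpa using e)]
  rw [show 121 = 11 * 11 from rfl, pow_mul, e, diagonal_pow, ← diagonal_one]
  congr 1
  ext i
  exact (h i i).1 (by simp)

/-- the standard 11-subgroup -/
def S0 (G : Subgroup (GL (Fin 11) F)) : Subgroup G where
  carrier := {x | ∃ k, Mo k (x.1.1 : Mt F)}
  mul_mem' := fun ⟨_, h1⟩ ⟨_, h2⟩ => ⟨_, h1.mul h2⟩
  one_mem' := ⟨0, Mo.one⟩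
  inv_mem' := by
    rintro x ⟨k, h⟩
    have e : x ^ 121 = 1 := Subtype.ext (Units.ext (by simpa using h.pow121))
    have : x⁻¹ = x ^ 120 := inv_eq_of_mul_eq_one_left (by rw [← pow_succ, e])
    exact ⟨120 • k, by rw [this]; simpa using h.pow 120⟩

theorem S0_p : IsPGroup 11 (S0 G) := by
  rintro ⟨x, k, h⟩
  exact ⟨2, Subtype.ext (Subtype.ext (Units.ext (by simpa using h.pow121)))⟩

theorem fix0 {s : Mt F} {k : Fin 11} (hk : k ≠ 0) (hs : ∀ r c, r ≠ c + k → s r c = 0)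
    {x : Fin 11 → F} (hx : s *ᵥ x = x) (h0 : x 0 = 0) : x = 0 := by
  have st : ∀ r, x r = 0 → x (r + k) = 0 := by
    intro r hr
    rw [← hx, mulVec, dotProduct]
    refine Finset.sum_eq_zero fun c _ => ?_
    by_cases e : c = r
    · rw [e, hr, mul_zero]
    · rw [hs _ _ (fun e' => e (add_right_cancel e').symm), zero_mul]
  ext r
  exact iter (p := fun r => x r = 0) hk st h0 r

theorem zc [Finite F] (S : Subgroup G) (hS : IsPGroup 11 S) {a : G} (ha : a ∈ S)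
    (hn : ∀ c : F, (a.1.1 : Mt F) ≠ c • 1) :
    ∃ z ∈ S, (∀ c : F, (z.1.1 : Mt F) ≠ c • 1) ∧
      ∀ s ∈ S, ∃ c : F, (z.1.1 : Mt F) * s.1.1 = c • (s.1.1 * z.1.1) := by
  haveI : Fact (Nat.Prime 11) := ⟨by norm_num⟩
  have hc : ∀ g : GL (Fin 11) F, g ∈ Subgroup.center (GL (Fin 11) F) ↔ ∃ c : F, g.1 = c • 1 := by
    intro g
    rw [GeneralLinearGroup.mem_center_iff_val_mem_range_scalar]
    simp only [Set.mem_range, scalar_apply, ← smul_one_eq_diagonal, eq_comm]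
  let π : G →* GL (Fin 11) F ⧸ Subgroup.center (GL (Fin 11) F) :=
    (QuotientGroup.mk' _).comp G.subtype
  have hπ : ∀ g : G, π g = 1 ↔ ∃ c : F, (g.1.1 : Mt F) = c • 1 := fun g =>
    (QuotientGroup.eq_one_iff _).trans (hc _)
  have hQ := hS.map π
  haveI : Nontrivial (S.map π) :=
    ⟨⟨π a, a, ha, rfl⟩, 1, fun e => by
      obtain ⟨c, e⟩ := (hπ a).1 (congrArg Subtype.val e)
      exact hn c e⟩
  haveI := hQ.center_nontrivial
  obtain ⟨⟨⟨_, z, hz, rfl⟩, hq⟩, h1⟩ := exists_ne (1 : Subgroup.center (S.map π))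
  refine ⟨z, hz, fun c e => h1 (Subtype.ext (Subtype.ext ((hπ z).2 ⟨c, e⟩))), fun s hs => ?_⟩
  have e := congrArg Subtype.val (Subgroup.mem_center_iff.1 hq ⟨π s, s, hs, rfl⟩)
  have e' : π ((s * z)⁻¹ * (z * s)) = 1 := by
    rw [map_mul, map_inv, map_mul, map_mul, inv_mul_eq_one]; exact e
  obtain ⟨c, e⟩ := (hπ _).1 e'
  refine ⟨c, ?_⟩
  have : z * s = (s * z) * ((s * z)⁻¹ * (z * s)) := by group
  have := congrArg (fun g : G => (g.1.1 : Mt F)) this
  simp only [Subgroup.coe_mul, Units.val_mul] at this e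
  rw [this, e, mul_smul_comm, mul_one]

theorem shape [Finite F] (h : Ctx ζ G) : ∃ S : Sylow 11 G, ∀ s ∈ S,
    ∃ k, ∀ r c, r ≠ c + k → (s.1.1 : Mt F) r c = 0 := by
  have h7 := h.prim.pow_eq_one
  have r7 : ∀ n : ℕ, (ζ ^ n) ^ 11 = 1 := fun n => by rw [← pow_mul, mul_comm, pow_mul, h7, one_pow]
  obtain ⟨S, hS⟩ := (S0_p (G := G)).exists_le_sylow
  obtain ⟨a, ha, ea⟩ := h.a
  obtain ⟨b, hb, eb⟩ := h.b
  obtain ⟨d, hd, ed⟩ := h.d
  have sa : (⟨a, ha⟩ : G) ∈ S.1 := hS ⟨0, ea ▸ Mo.diag fun _ => r7 _⟩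
  have sd : (⟨d, hd⟩ : G) ∈ S.1 := hS ⟨0, ed ▸ Mo.diag fun _ => r7 _⟩
  have sb : (⟨b, hb⟩ : G) ∈ S.1 := hS ⟨1, eb ▸ fun r c =>
    ⟨fun e => by simp [mB, e], fun e => by simp [mB, e]⟩⟩
  obtain ⟨z, hz, hn, hc⟩ := zc S.1 S.2 sa (fun c e => by
    have e0 := congrFun (congrFun (ea.symm.trans e) 0) 0
    have e1 := congrFun (congrFun (ea.symm.trans e) 1) 1
    simp [mA] at e0 e1
    exact h.prim.ne_one (by norm_num) (e1.trans e0.symm))
  obtain ⟨α, hα⟩ := hc _ sa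
  obtain ⟨β, hβ⟩ := hc _ sb
  obtain ⟨γ, hγ⟩ := hc _ sd
  simp only [ea, eb, ed] at hα hβ hγ
  obtain ⟨c, i, j, ez⟩ := cen0 h.prim z.1.ne_zero hα hβ
  have c0 : c ≠ 0 := by rintro rfl; exact z.1.ne_zero (by rw [ez, zero_smul])
  have j0 : j = 0 := by
    have e : ∀ t, ch ζ (t * t) = γ * ch ζ ((t + j) * (t + j)) := by
      intro t
      have := congrFun (congrFun hγ (t + j)) t
      simp only [ez, mD_eq h7, Matrix.smul_apply, mul_diagonal, diagonal_mul, E, of_apply, if_true,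
        smul_eq_mul] at this
      exact mul_left_cancel₀ (mul_ne_zero c0 (ch_ne h7 (i * (t + j)))) (by rw [this]; ring)
    have : ch ζ (1 * 1 + (0 + j) * (0 + j)) = ch ζ (0 * 0 + (1 + j) * (1 + j)) := by
      rw [ch_add h7, ch_add h7, e 1, e 0]; ring
    have k : ∀ j : Fin 11, 1 * 1 + (0 + j) * (0 + j) = 0 * 0 + (1 + j) * (1 + j) → j = 0 := by
      decide +kernel
    exact k j (ch_inj h.prim this)
  have i0 : i ≠ 0 := by
    rintro rfl
    refine hn c (by rw [ez, j0]; ext r c; simp [E, ch_zero, one_apply])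
  refine ⟨S, fun s hs => ?_⟩
  obtain ⟨δ, hδ⟩ := hc s hs
  have e : ∀ r t, (s.1.1 : Mt F) r t ≠ 0 → ch ζ (i * r) = δ * ch ζ (i * t) := by
    intro r t h0
    have := congrFun (congrFun hδ r) t
    simp only [ez, j0, smul_mul_assoc, mul_smul_comm, Matrix.smul_apply, E_mul, mul_E, add_zero,
      sub_zero, smul_eq_mul] at this
    exact mul_left_cancel₀ (mul_ne_zero c0 h0) (by linear_combination this)
  obtain ⟨r0, t0, h0⟩ : ∃ r t, (s.1.1 : Mt F) r t ≠ 0 := by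
    by_contra hc
    push Not at hc
    exact s.1.ne_zero (by ext r c; exact hc r c)
  refine ⟨r0 - t0, fun r t hr => by_contra fun h1 => hr ?_⟩
  have : ch ζ (i * r + i * t0) = ch ζ (i * r0 + i * t) := by
    rw [ch_add h7, ch_add h7, e _ _ h0, e _ _ h1]; ring
  have := ch_inj h.prim this
  have k : ∀ i x : Fin 11, i ≠ 0 → i * x = 0 → x = 0 := by decide +kernel
  have := k i (r + t0 - (r0 + t)) i0 (by linear_combination this)
  linear_combination this

end Syl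

theorem syl [Fintype F] (h : Ctx ζ G) {g : Mt F} (hg : In G g) (h7 : g ^ 11 = 1) {u v : Fin 11 → F}
    (hi : LinearIndependent F ![u, v]) (hu : g *ᵥ u = u) (hv : g *ᵥ v = v) :
    ∃ n n' : Mt F, In G n ∧ n * n' = 1 ∧ (n * g * n').IsDiag := by
  haveI : Fact (Nat.Prime 11) := ⟨by norm_num⟩
  obtain ⟨S, hS⟩ := Syl.shape h
  obtain ⟨g, hg, rfl⟩ := hg
  have hp : IsPGroup 11 (Subgroup.zpowers (⟨g, hg⟩ : G)) := by
    refine IsPGroup.of_card_dvd_pow (n := 1) ?_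
    rw [Nat.card_zpowers, pow_one]
    exact orderOf_dvd_of_pow_eq_one (Subtype.ext (Units.ext (by simpa using h7)))
  obtain ⟨T, hT⟩ := hp.exists_le_sylow
  obtain ⟨n, rfl⟩ := MulAction.exists_smul_eq G T S
  obtain ⟨k, hk⟩ := hS (MulAut.conj n • (⟨g, hg⟩ : G))
    (Subgroup.smul_mem_pointwise_smul _ _ _ (hT (Subgroup.mem_zpowers _)))
  set a : Mt F := n.1.1
  set b : Mt F := n.1⁻¹.1
  have e1 : a * b = 1 := Units.mul_inv _
  have e2 : b * a = 1 := Units.inv_mul _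
  change ∀ r c, r ≠ c + k → (a * g.1 * b) r c = 0 at hk
  refine ⟨a, b, ⟨n.1, n.2, rfl⟩, e1, ?_⟩
  by_cases k0 : k = 0
  · exact fun r c e => hk r c (by simpa [k0] using e)
  have f : ∀ y, g.1 *ᵥ y = y → (a *ᵥ y) 0 = 0 → y = 0 := by
    intro y hy h0
    have := Syl.fix0 k0 hk (x := a *ᵥ y)
      (by rw [mulVec_mulVec, mul_assoc, e2, mul_one, ← mulVec_mulVec, hy]) h0
    rw [← one_mulVec y, ← e2, ← mulVec_mulVec, this, mulVec_zero]
  rw [LinearIndependent.pair_iff] at hi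
  have := hi ((a *ᵥ v) 0) (-(a *ᵥ u) 0) (f _ (by rw [mulVec_add, mulVec_smul, mulVec_smul, hu, hv])
    (by rw [mulVec_add, mulVec_smul, mulVec_smul]; simp only [Pi.add_apply, Pi.smul_apply, smul_eq_mul]; ring))
  have := f u hu (neg_eq_zero.1 this.2)
  exact absurd (hi 1 0 (by simp [this])).1 one_ne_zero

end Cfsg.Agent.C11
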