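import Cfsg.Agent.C11.TvB
import Cfsg.Agent.C11.Syl
import Cfsg.Agent.C11.Gam
import Cfsg.Agent.C11.Dg

set_option autoImplicit false
open Matrix

namespace Cfsg.Agent.C11

variable {F : Type*} [Field F] [Fintype F] {ζ : F} {p : ℕ}

theorem FH.odd (hF : FH F p) : p ≠ 2 := by
  rintro rfl
  obtain ⟨-, -, ⟨-, h⟩ | ⟨-, h⟩⟩ := hF <;> simp at h

theorem no_hom {G : Subgroup (GL (Fin 11) F)}
    (hhom : ∀ {μ : F} {l : ℕ}, l.Prime → 3 ≤ l → IsPrimitiveRoot μ l → In G (mH μ) → TVx G)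
    (hrefl : In G (mH (-1 : F)) → TVx G) (hT : ¬ TVx G) (μ : F) (hm : In G (mH μ)) : μ = 1 := by
  by_contra h1
  have h0 : μ ≠ 0 := by
    obtain ⟨M, -, e, -⟩ := hm.exists_inv
    rintro rfl
    have := congrFun (congrFun e 0) 0
    simp [mH] at this
  have hf : IsOfFinOrder μ := isOfFinOrder_iff_pow_eq_one.2
    ⟨Fintype.card F - 1, Nat.sub_pos_of_lt Fintype.one_lt_card,
      FiniteField.pow_card_sub_one_eq_one μ h0⟩
  have hn : orderOf μ ≠ 1 := fun e => h1 (orderOf_eq_one_iff.1 e)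
  obtain ⟨l, hl, k, hk⟩ := Nat.exists_prime_and_dvd hn
  have hr : IsPrimitiveRoot (μ ^ k) l :=
    (IsPrimitiveRoot.orderOf μ).pow hf.orderOf_pos (hk.trans (mul_comm _ _))
  have e : mH μ ^ k = mH (μ ^ k) := by
    rw [mH, mH, diagonal_pow]
    congr 1
    funext i
    by_cases hi : i = 0 <;> simp [hi]
  have hm' : In G (mH (μ ^ k)) := e ▸ hm.pow k
  rcases hl.two_le.eq_or_lt with rfl | h3
  · exact hT (hrefl (hr.eq_neg_one_of_two_right ▸ hm'))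
  · exact hT (hhom hl h3 hr hm')

theorem mainOdd (hF : FH F p)
    (htvA : ∀ {G : Subgroup (GL (Fin 11) F)}, Ctx ζ G → ∀ {v φ v' φ' : Fin 11 → F}, Tr G v φ →
      Tr G v' φ' → (φ ⬝ᵥ v') * (φ' ⬝ᵥ v) ≠ 0 →
      (Fintype.card F = p ∨ ((φ ⬝ᵥ v') * (φ' ⬝ᵥ v)) ^ p ≠ (φ ⬝ᵥ v') * (φ' ⬝ᵥ v)) → SLle G)
    (hhom : ∀ {G : Subgroup (GL (Fin 11) F)}, Ctx ζ G → ∀ {μ : F} {l : ℕ}, l.Prime → 3 ≤ l →
      IsPrimitiveRoot μ l → In G (mH μ) → TVx G)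
    (hrefl : ∀ {G : Subgroup (GL (Fin 11) F)}, Ctx ζ G → In G (mH (-1 : F)) → TVx G)
    (hk5 : ∀ {G : Subgroup (GL (Fin 11) F)}, Ctx ζ G → (∀ μ : F, In G (mH μ) → μ = 1) → DG G →
      GM ζ G → K5 G)
    (hmit : ∀ {G : Subgroup (GL (Fin 11) F)}, Ctx ζ G → DG G → GM ζ G → K5 G → UI G ∧ CO G)
    (hbs : ∀ {G : Subgroup (GL (Fin 11) F)}, Ctx ζ G → UI G → CO G → Nor ζ G) :
    MainZ ζ := by
  intro G h
  by_cases hT : TVx G
  · obtain ⟨v, φ, v', φ', h1, h2, h0, hl⟩ := tvB hF h hT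
    exact Or.inl (htvA h h1 h2 h0 hl)
  · have hh := no_hom (hhom h) (hrefl h) hT
    have hD := dg h hh
    have hG := gam hF hF.odd h hD
    obtain ⟨hU, hO⟩ := hmit h hD hG (hk5 h hh hD hG)
    exact Or.inr (hbs h hU hO)

theorem exists_zeta (hF : FH F p) : ∃ ζ : F, IsPrimitiveRoot ζ 11 := by
  classical
  have h7 : 11 ∣ Fintype.card Fˣ := by
    rw [Fintype.card_units]
    refine (Nat.modEq_iff_dvd' Fintype.card_pos).1 (Nat.ModEq.symm ?_)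
    obtain ⟨-, -, ⟨h1, h2⟩ | ⟨h1, h2 | h2 | h2 | h2⟩⟩ := hF <;> rw [h1, Nat.ModEq] <;>
      simp [Nat.pow_mod, h2]
  haveI : Fact (Nat.Prime 11) := ⟨by norm_num⟩
  obtain ⟨u, hu⟩ := exists_prime_orderOf_dvd_card 11 h7
  exact ⟨u, IsPrimitiveRoot.coe_units_iff.2 (hu ▸ IsPrimitiveRoot.orderOf u)⟩

theorem main_of (hF : FH F p) (h : ∀ ζ : F, MainZ ζ) : ∃ ζ : F, IsPrimitiveRoot ζ 11 ∧ MainZ ζ :=
  (exists_zeta hF).imp fun ζ hζ => ⟨hζ, h ζ⟩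

end Cfsg.Agent.C11
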