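import Cfsg.Agent.C11.MitA

set_option autoImplicit false
open Matrix Subgroup

set_option maxHeartbeats 1000000
namespace Cfsg.Agent.C11

open Cfsg.Geo Cfsg.Agent.Asch MitA

namespace Mit0

variable {F : Type*} [Field F] {ζ : F} {G : Subgroup (GL (Fin 11) F)}

variable (G) in
/-- the centraliser of `t` -/
def CT : Subgroup (GL (Fin 11) F) where
  carrier := {y | y ∈ G ∧ y.1 * mT F = mT F * y.1}
  one_mem' := ⟨one_mem _, by simp⟩
  mul_mem' := fun ⟨h1, h2⟩ ⟨k1, k2⟩ => ⟨mul_mem h1 k1, by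
    rw [Units.val_mul, mul_assoc, k2, ← mul_assoc, h2, mul_assoc]⟩
  inv_mem' := fun ⟨h1, h2⟩ => ⟨inv_mem h1, (Commute.units_inv_left h2 :)⟩

variable (G) in
/-- the representation on the odd vectors -/
def r0 : CT G →* Matrix (Fin 5) (Fin 5) F where
  toFun y := r5 y.1.1
  map_one' := r5_one
  map_mul' _ y := r5_mul _ y.2.2

variable (G) in
/-- the same with values in the general linear group -/
def rr : CT G →* GL (Fin 5) F := (r0 G).toHomUnits

theorem rr_val (y : CT G) : (rr G y).1 = r5 y.1.1 := rfl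

/-- the elements of `Z⟨t⟩` -/
def Kc (k : CT G) : Prop := ∃ c : F, k.1.1 = c • 1 ∨ k.1.1 = c • mT F

theorem Kc.comm {k : CT G} (h : Kc k) (y : CT G) : k * y = y * k := by
  obtain ⟨c, h | h⟩ := h <;> refine Subtype.ext (Units.ext ?_) <;>
    simp only [Subgroup.coe_mul, Units.val_mul, h, smul_mul_assoc, mul_smul_comm, one_mul, mul_one]
  rw [y.2.2]

theorem Kc.sq {k : CT G} (h : Kc k) : ∃ c : F, (k * k).1.1 = c • 1 := by
  obtain ⟨c, h | h⟩ := h <;> refine ⟨c * c, ?_⟩ <;>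
    simp only [Subgroup.coe_mul, Units.val_mul, h, smul_mul_smul_comm, one_mul, TT]

theorem gl_center (g : GL (Fin 11) F) : g ∈ center (GL (Fin 11) F) ↔ ∃ c : F, g.1 = c • 1 := by
  refine ⟨fun h => ?_, fun ⟨c, hc⟩ => mem_center_iff.2 fun y => Units.ext (by simp [hc])⟩
  obtain ⟨r, e⟩ := Matrix.GeneralLinearGroup.mem_center_iff_val_mem_range_scalar.1 h
  exact ⟨r, e.symm.trans (smul_one_eq_diagonal r).symm⟩

theorem sc_of {x y : GL (Fin 5) F} {c : F} (h : x.1 = c • y.1) : x * y⁻¹ ∈ scalars (Fin 5) F :=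
  mem_scalars_of_eq_smul (c := c) (by rw [Units.val_mul, h, smul_mul_assoc, Units.mul_inv])

theorem sc_comm {x : GL (Fin 5) F} (h : x ∈ scalars (Fin 5) F) (y : GL (Fin 5) F) : x * y = y * x := by
  obtain ⟨c, hc⟩ := (mem_scalars_iff _).1 h
  exact Units.ext (by simp [hc])

end Mit0

open Mit0

theorem mit0 {F : Type*} [Field F] [Fintype F] {ζ : F} {G : Subgroup (GL (Fin 11) F)} {p : ℕ}
    (hF : FH F p)
    (hq : ∀ {H : Subgroup (GL (Fin 5) F)} {δ ω μ : GL (Fin 5) F}, H5 ζ H δ ω μ →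
      (∃ P, QS H P ∧ (∀ y ∈ H, y * y ∈ scalars (Fin 5) F →
        ∃ (c : F) (x : GL (Fin 5) F), x ∈ P ∧ y.1 = c • x.1) ∧
        ∀ a b : P ⧸ Subgroup.center P, orderOf a = 2 → orderOf b = 2 → IsConj a b) ∨
      ∃ U ∈ H, ∃ V ∈ H, ∃ e : F, U.1 * U.1 = e • ω.1 ∧ V * V = U * U ∧ U * V * U = V)
    (h : Ctx ζ G) (hD : DG G) (hG : GM ζ G) (hK : K5 G) : UI G ∧ CO G := by
  classical
  have hζ := h.prim
  have h11 : (11 : F) ≠ 0 := by
    have := hF.2.1
    have e : ((11 : ℕ) : F) ≠ 0 := by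
      rw [Ne, CharP.cast_eq_zero_iff F p, Nat.prime_dvd_prime_iff_eq hF.1 (by norm_num)]
      have := hF.2.2
      omega
    exact_mod_cast e
  have hk : ∀ x : CT G, rr G x ∈ scalars (Fin 5) F → Kc x := fun x hx => by
    obtain ⟨c, hc⟩ := (mem_scalars_iff _).1 hx
    exact hK _ ⟨_, x.2.1, rfl⟩ x.2.2 ⟨c, hc⟩
  obtain ⟨d', hd, ed⟩ := h.d
  obtain ⟨w', hw, ew⟩ := h.w
  obtain ⟨m', hm, em⟩ := h.m
  let d : CT G := ⟨d', hd, ed ▸ dT hζ⟩
  let w : CT G := ⟨w', hw, ew ▸ wT hζ⟩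
  let m : CT G := ⟨m', hm, em ▸ mT_comm⟩
  have ed : d.1.1 = mD ζ := ed
  have ew : w.1.1 = mW ζ := ew
  have em : m.1.1 = mM F := em
  clear_value d w m
  have wz : ∀ i j, (rr G w).1 i j ≠ 0 := fun i j => by rw [rr_val, ew]; exact r5_w hζ i j
  have w2 : (rr G w).1 * (rr G w).1 = (-11 : F) • (1 : Matrix (Fin 5) (Fin 5) F) := by
    rw [rr_val, ew, ← r5_mul _ (wT hζ), wsq hζ, r5_smul, r5_T]; simp
  have h5 : H5 ζ (rr G).range (rr G d) (rr G w) (rr G m) := by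
    refine ⟨hζ, fun x hx => ?_, ⟨d, rfl⟩, ⟨w, rfl⟩, ⟨m, rfl⟩, ?_, wz, w2, ?_, ?_⟩
    · obtain ⟨c, hc⟩ := (mem_scalars_iff _).1 hx
      obtain ⟨g, hg, e⟩ := h.sc c c.ne_zero
      exact ⟨⟨g, hg, by simp [e]⟩, Units.ext (by rw [rr_val, hc, e, r5_smul, r5_one])⟩
    · rw [rr_val, ed, mD, r5_diag]; rfl
    · rw [mul_inv_eq_iff_eq_mul, ← map_pow, ← map_mul, ← map_mul]
      congr 1
      refine Subtype.ext (Units.ext ?_)
      simp only [Subgroup.coe_mul, Subgroup.coe_pow, Units.val_mul, Units.val_pow_eq_pow_val, ed, em,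
        md hζ]
    · rintro _ ⟨y, rfl⟩ hx
      obtain ⟨c, hc⟩ := hk (y * d * (d * y)⁻¹) (by
        rw [map_mul, map_inv, map_mul, map_mul, hx, mul_inv_cancel]; exact one_mem _)
      have e' : y.1.1 * mD ζ = (y * d * (d * y)⁻¹).1.1 * (mD ζ * y.1.1) := by
        rw [← ed, ← Units.val_mul, ← Units.val_mul, ← Units.val_mul, ← Subgroup.coe_mul,
          ← Subgroup.coe_mul, ← Subgroup.coe_mul, inv_mul_cancel_right]
      have hx' := congrArg Units.val hx
      rw [Units.val_mul, Units.val_mul, rr_val, rr_val, ed] at hx'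
      obtain ⟨e, he⟩ := cen22 h hD hG ⟨_, y.2.1, rfl⟩ (cend hζ y.2.2 y.1.mul_inv y.1.inv_mul hx' (c := c)
        (hc.imp (fun q => by rw [← q]; exact e') fun q => by rw [← q]; exact e'))
      refine mem_scalars_of_eq_smul (c := e) ?_
      rw [← map_pow, rr_val, Subgroup.coe_pow, Units.val_pow_eq_pow_val, he, r5_smul, r5_one]
  have key : ∀ z : CT G, rr G z * (rr G w)⁻¹ ∈ scalars (Fin 5) F → ∀ c : F, (z * z).1.1 ≠ c • 1 :=
    fun z hz c hc => by
    have k := hk (z * w⁻¹) (by rwa [map_mul, map_inv])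
    obtain ⟨e, he⟩ := k.sq
    have : z * z = (z * w⁻¹ * (z * w⁻¹)) * (w * w) := by
      rw [mul_assoc, ← mul_assoc (z * w⁻¹) w, k.comm w, ← mul_assoc, ← mul_assoc]; group
    rw [this, Subgroup.coe_mul, Units.val_mul, he, Subgroup.coe_mul, Units.val_mul, ew, wsq hζ,
      smul_mul_assoc, one_mul, smul_smul] at hc
    have e0 : e ≠ 0 := fun e0 => (z * w⁻¹ * (z * w⁻¹)).1.ne_zero (by rw [he, e0, zero_smul])
    exact T_ne ((e * 11)⁻¹ * c) (by rw [mul_smul, ← hc, inv_smul_smul₀ (mul_ne_zero e0 h11)])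
  have wn : rr G w ∉ scalars (Fin 5) F := fun hx => by
    obtain ⟨c, hc⟩ := (mem_scalars_iff _).1 hx
    exact wz 0 1 (by simp [hc])
  have ws : rr G w * rr G w ∈ scalars (Fin 5) F := mem_scalars_of_eq_smul w2
  rcases hq h5 with ⟨P, hP, hy, hc⟩ | ⟨_, ⟨u, rfl⟩, _, ⟨v, rfl⟩, e, h1, h2, h3⟩
  swap
  · exfalso
    have k1 := hk (u * u * (v * v)⁻¹) (by
      rw [map_mul, map_inv, map_mul, map_mul, h2, mul_inv_cancel]; exact one_mem _)
    have k2 := hk (u * v * u * v⁻¹) (by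
      rw [map_mul, map_inv, map_mul, map_mul, h3, mul_inv_cancel]; exact one_mem _)
    obtain ⟨c, hc⟩ := k2.sq
    refine key (u * u) (sc_of (c := e) (by rw [map_mul, Units.val_mul, h1])) c ?_
    rw [← hc]
    congr 2
    have a1 : v * (u * u) = u * u * v := by
      have := k1.comm v
      calc v * (u * u) = v * (u * u * (v * v)⁻¹) * (v * v) := by group
        _ = u * u * v := by rw [← this]; group
    have a2 := k2.comm u
    calc u * u * (u * u) = u * u * v * (u * u) * v⁻¹ := by rw [mul_assoc _ v, a1]; group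
      _ = u * (u * v * u * v⁻¹) * (v * u * v⁻¹) := by group
      _ = _ := by rw [← a2]; group
  have cP : ∀ x : P, (x : P ⧸ center P) = 1 ↔ x.1 ∈ scalars (Fin 5) F := fun x => by
    rw [QuotientGroup.eq_one_iff, mem_center_iff]
    exact ⟨fun q => hP.abs.mem_scalars_of_comm fun y hy => (congrArg Subtype.val (q ⟨y, hy⟩)).symm,
      fun q y => Subtype.ext (sc_comm q _).symm⟩
  have lift : ∀ y : CT G, rr G y * rr G y ∈ scalars (Fin 5) F → rr G y ∉ scalars (Fin 5) F →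
      ∃ x : P, rr G y * x.1⁻¹ ∈ scalars (Fin 5) F ∧ x.1 * x.1 ∈ scalars (Fin 5) F ∧
        x.1 ∉ scalars (Fin 5) F := fun y q1 q2 => by
    obtain ⟨c, x, hx, e⟩ := hy _ ⟨y, rfl⟩ q1
    have s := sc_of e
    refine ⟨⟨x, hx⟩, s, ?_, fun q => q2 (by simpa using mul_mem s q)⟩
    have := mul_mem (inv_mem (mul_mem s s)) q1
    have e2 := sc_comm s x
    generalize rr G y = Y at this e2
    have e3 : Y * Y = (Y * x⁻¹ * (Y * x⁻¹)) * (x * x) := by
      rw [mul_assoc, ← mul_assoc (Y * x⁻¹) x, e2, ← mul_assoc, ← mul_assoc]; group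
    rwa [e3, inv_mul_cancel_left] at this
  have : Fact (Nat.Prime 2) := ⟨Nat.prime_two⟩
  have o2 : ∀ x : P, x.1 * x.1 ∈ scalars (Fin 5) F → x.1 ∉ scalars (Fin 5) F →
      orderOf (x : P ⧸ center P) = 2 := fun x q1 q2 =>
    orderOf_eq_prime (by rw [pow_two, ← QuotientGroup.mk_mul]; exact (cP _).2 q1) fun q => q2 ((cP _).1 q)
  obtain ⟨xw, s1, s2, s3⟩ := lift w ws wn
  refine ⟨?_, fun N hN hNt hNn ho => ?_⟩
  · rintro _ ⟨y', hy', rfl⟩ ht ⟨c, hc'⟩
    by_contra hn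
    let y : CT G := ⟨y', hy', ht⟩
    obtain ⟨x, t1, t2, t3⟩ := lift y (mem_scalars_of_eq_smul (c := c) (by
      rw [← map_mul, rr_val, Subgroup.coe_mul, Units.val_mul, hc', r5_smul, r5_one])) fun q => hn (hk y q)
    obtain ⟨g, hg⟩ := isConj_iff.1 (hc _ _ (o2 x t2 t3) (o2 xw s2 s3))
    induction g using QuotientGroup.induction_on with
    | H g =>
    have q := (cP (g * x * g⁻¹ * xw⁻¹)).1 (by
      simp only [QuotientGroup.mk_mul, QuotientGroup.mk_inv, hg, mul_inv_cancel])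
    obtain ⟨g', e⟩ := hP.le g.2
    refine key (g' * y * g'⁻¹) ?_ c ?_
    · have := mul_mem (mul_mem ((scalars_normal).conj_mem _ t1 g.1) q) (inv_mem s1)
      simp only [Subgroup.coe_mul, Subgroup.coe_inv] at this
      rw [map_mul, map_mul, map_inv, e]
      convert this using 1
      group
    · rw [show g' * y * g'⁻¹ * (g' * y * g'⁻¹) = g' * (y * y) * g'⁻¹ by group]
      simp only [Subgroup.coe_mul, Subgroup.coe_inv, Units.val_mul]
      rw [show y.1.1 * y.1.1 = _ from hc']; simp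
  · have hp' : ∀ n ∈ N, n ^ (center (GL (Fin 11) F)).relIndex N ∈ center (GL (Fin 11) F) :=
      fun n hn => pow_relIndex_mem _ hn
    obtain ⟨k, hk'⟩ := ho
    let N' := (N.subgroupOf (CT G)).map (rr G)
    have n1 : GNorms P N' := by
      rintro g hg _ ⟨n, hn, rfl⟩
      obtain ⟨g', rfl⟩ := hP.le hg
      exact ⟨g' * n * g'⁻¹, hNn g'.1 g'.2.1 g'.2.2 n.1 hn, by rw [map_mul, map_mul, map_inv]⟩
    have n2 : GNorms N' P := by
      rintro _ ⟨n, -, rfl⟩
      exact hP.norm _ ⟨n, rfl⟩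
    have hM : P ⊓ N' ≤ scalars (Fin 5) F := (hP.min.min _ inf_le_left fun g hg x hx =>
      ⟨GNorms.self P g hg x hx.1, n1 g hg x hx.2⟩).resolve_right fun e => by
        obtain ⟨n, hn, e⟩ := (e.ge xw.2).2
        obtain ⟨c, hc⟩ := (gl_center _).1 (hp' n hn)
        have : xw.1 ^ (2 * k + 1) ∈ scalars (Fin 5) F := mem_scalars_of_eq_smul (c := c) (by
          rw [← e, ← map_pow, rr_val, Subgroup.coe_pow, ← hk', hc, r5_smul, r5_one])
        apply s3
        have := mul_mem (inv_mem (pow_mem s2 k)) this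
        rwa [show ((xw.1 * xw.1) ^ k)⁻¹ * xw.1 ^ (2 * k + 1) = xw.1 by
          rw [← pow_two, ← pow_mul, pow_succ, inv_mul_cancel_left]] at this
    have c1 : ⁅P, N'⁆ ≤ scalars (Fin 5) F := le_trans (commutator_le.2 fun a ha b hb => mem_inf.2
      ⟨by rw [commutatorElement_def, mul_assoc, mul_assoc, ← mul_assoc b]
          exact mul_mem ha (n2 b hb _ (inv_mem ha)),
        by rw [commutatorElement_def]; exact mul_mem (n1 a ha b hb) (inv_mem hb)⟩) hM
    have c2 : ⁅⁅P, N'⁆, P⁆ = ⊥ := eq_bot_iff.2 (commutator_le.2 fun a ha b _ =>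
      mem_bot.2 (commutatorElement_eq_one_iff_mul_comm.2 (sc_comm (c1 ha) b)))
    have c3 := commutator_commutator_eq_bot_of_rotate c2 (by rwa [commutator_comm N' P])
    rw [hP.perf] at c3
    intro n hn
    let n' : CT G := ⟨n, hN hn, hNt n hn⟩
    obtain ⟨c, hc⟩ := (hk n' (hP.abs.mem_scalars_of_comm fun x hx =>
      (commutatorElement_eq_one_iff_mul_comm.1 (mem_bot.1 (c3 ▸ commutator_mem_commutator hx
        (show rr G n' ∈ N' from ⟨n', hn, rfl⟩)))).symm)).sq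
    have := mul_mem (inv_mem (pow_mem ((gl_center (n * n)).2 ⟨c, hc⟩) k)) (hp' n hn)
    rwa [hk', show ((n * n) ^ k)⁻¹ * n ^ (2 * k + 1) = n by
      rw [← pow_two, ← pow_mul, pow_succ, inv_mul_cancel_left]] at this

end Cfsg.Agent.C11
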