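import Cfsg.Agent.C11.M5

set_option autoImplicit false
open Matrix Subgroup

set_option maxHeartbeats 1000000
namespace Cfsg.Agent.C11.MitA

variable {F : Type*} [Field F] {ζ : F} {G : Subgroup (GL (Fin 11) F)}

theorem sym {y : Mt F} (h : y * mT F = mT F * y) (i j : Fin 11) : y (-i) (-j) = y i j := by
  have := congrFun (congrFun h (-i)) j
  simp only [mul_apply, mT, of_apply, mul_ite, ite_mul, mul_one, mul_zero, one_mul, zero_mul,
    Finset.sum_ite_eq', Finset.mem_univ, if_true, neg_inj, Finset.sum_ite_eq] at this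
  exact this

theorem comm_T {y : Mt F} (h : ∀ i j : Fin 11, y (-i) (-j) = y i j) : y * mT F = mT F * y := by
  ext i j
  obtain ⟨i, rfl⟩ := neg_surjective i
  simp only [mul_apply, mT, of_apply, mul_ite, ite_mul, mul_one, mul_zero, one_mul, zero_mul,
    Finset.sum_ite_eq', Finset.mem_univ, if_true, neg_inj, Finset.sum_ite_eq]
  exact h i j

/-- the positive half -/
def up (j : Fin 5) : Fin 11 := ⟨j + 1, by omega⟩

theorem r5_apply (y : Mt F) (i j : Fin 5) : r5 y i j = y (up i) (up j) - y (up i) (-up j) := by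
  have : ∀ j : Fin 5, (⟨10 - j, by omega⟩ : Fin 11) = -up j := by decide
  simp only [r5, of_apply, this]; rfl

theorem sum11 (f : Fin 11 → F) : ∑ k, f k = f 0 + ∑ k : Fin 5, (f (up k) + f (-up k)) := by
  simp only [Fin.sum_univ_succ, Fin.sum_univ_zero]
  show f 0 + (f 1 + (f 2 + (f 3 + (f 4 + (f 5 + (f 6 + (f 7 + (f 8 + (f 9 + (f 10 + 0)))))))))) =
    f 0 + (f 1 + f 10 + (f 2 + f 9 + (f 3 + f 8 + (f 4 + f 7 + (f 5 + f 6 + 0)))))
  ring

theorem r5_mul (x : Mt F) {y : Mt F} (h : y * mT F = mT F * y) : r5 (x * y) = r5 x * r5 y := by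
  have s := sym h
  ext i j
  have s0 : y 0 (-up j) = y 0 (up j) := by rw [← s 0 (up j), neg_zero]
  have s1 : ∀ k, y (-up k) (up j) = y (up k) (-up j) := fun k => by rw [← s (up k), neg_neg]
  simp only [r5_apply, mul_apply, sum11, s0, s1, s, add_sub_add_left_eq_sub, ← Finset.sum_sub_distrib]
  exact Finset.sum_congr rfl fun k _ => by ring

theorem r5_smul (c : F) (y : Mt F) : r5 (c • y) = c • r5 y := by
  ext i j; simp [r5, mul_sub]

theorem r5_diag (f : Fin 11 → F) : r5 (diagonal f) = diagonal fun i => f (up i) := by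
  ext i j
  rw [r5_apply, diagonal_apply_ne _ ((by decide : ∀ i j : Fin 5, up i ≠ -up j) i j), sub_zero,
    diagonal_apply, diagonal_apply]
  exact if_congr ((by decide : ∀ i j : Fin 5, up i = up j ↔ i = j) i j) rfl rfl

theorem r5_one : r5 (1 : Mt F) = 1 := r5_diag _

theorem r5_T : r5 (mT F) = -1 := by
  ext i j
  rw [r5_apply, mT, of_apply, of_apply, if_neg ((by decide : ∀ i j : Fin 5, up i ≠ -up j) i j), zero_sub,
    neg_neg, neg_apply, one_apply]
  exact congrArg _ (if_congr ((by decide : ∀ i j : Fin 5, up i = up j ↔ i = j) i j) rfl rfl)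

theorem TT : mT F * mT F = 1 := by
  ext i j
  simp only [mul_apply, mT, of_apply, mul_ite, mul_one, mul_zero, Finset.sum_ite_eq',
    Finset.mem_univ, if_true, neg_neg, one_apply]

theorem T_ne (c : F) : mT F ≠ c • 1 := fun e => by
  have := congrFun (congrFun e 1) 10
  simp +decide [mT] at this

theorem pw (hζ : IsPrimitiveRoot ζ 11) {a b : ℕ} (h : a % 11 = b % 11) : ζ ^ a = ζ ^ b := by
  rw [pow_eq_pow_mod a hζ.pow_eq_one, h, ← pow_eq_pow_mod b hζ.pow_eq_one]

theorem pi (hζ : IsPrimitiveRoot ζ 11) {a b : ℕ} (h : ζ ^ a = ζ ^ b) : a % 11 = b % 11 := by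
  rw [pow_eq_pow_mod a hζ.pow_eq_one, pow_eq_pow_mod b hζ.pow_eq_one] at h
  exact hζ.pow_inj (Nat.mod_lt _ (by norm_num)) (Nat.mod_lt _ (by norm_num)) h

theorem dT (hζ : IsPrimitiveRoot ζ 11) : mD ζ * mT F = mT F * mD ζ := comm_T fun i j => by
  simp only [mD, diagonal_apply, neg_inj]
  split_ifs
  · exact pw hζ ((by decide : ∀ i : Fin 11, ((-i : Fin 11) : ℕ) ^ 2 % 11 = (i : ℕ) ^ 2 % 11) i)
  · rfl

theorem wT (hζ : IsPrimitiveRoot ζ 11) : mW ζ * mT F = mT F * mW ζ := comm_T fun i j =>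
  pw hζ (by revert i j; decide)

theorem mT_comm : mM F * mT F = mT F * mM F := by rw [← mM_pow, ← pow_succ, ← pow_succ']

theorem gs (hζ : IsPrimitiveRoot ζ 11) (n : ℕ) :
    ∑ k ∈ Finset.range 11, (ζ ^ n) ^ k = if n % 11 = 0 then 11 else 0 := by
  split_ifs with h
  · rw [pw hζ (b := 0) h]; simp
  · exact (hζ.pow_of_coprime n ((Nat.Prime.coprime_iff_not_dvd (by norm_num)).2 fun e =>
      h (Nat.mod_eq_zero_of_dvd e)).symm).geom_sum_eq_zero (by norm_num)

theorem wsq (hζ : IsPrimitiveRoot ζ 11) : mW ζ * mW ζ = (11 : F) • mT F := by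
  ext i j
  have := gs hζ (i + j)
  rw [Finset.sum_range] at this
  simp only [mul_apply, mW, of_apply, Matrix.smul_apply, mT, smul_eq_mul, mul_ite, mul_one, mul_zero]
  rw [if_congr ((by decide : ∀ i j : Fin 11, i = -j ↔ ((i : ℕ) + j) % 11 = 0) i j) rfl rfl, ← this]
  exact Finset.sum_congr rfl fun k _ => by ring

theorem r5_w (hζ : IsPrimitiveRoot ζ 11) (i j : Fin 5) : r5 (mW ζ) i j ≠ 0 := fun e => by
  rw [r5_apply, sub_eq_zero] at e
  exact (by decide : ∀ i j : Fin 5, (up i : ℕ) * (up j : ℕ) % 11 ≠ (up i : ℕ) * ((-up j : Fin 11) : ℕ) % 11)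
    i j (pi hζ e)

theorem d11 (hζ : IsPrimitiveRoot ζ 11) : mD ζ ^ 11 = 1 := by
  rw [mD, diagonal_pow, ← diagonal_one]
  congr 1; ext i
  rw [Pi.pow_apply, ← pow_mul, mul_comm, pow_mul, hζ.pow_eq_one, one_pow]

theorem md (hζ : IsPrimitiveRoot ζ 11) : mM F * mD ζ = mD ζ ^ 3 * mM F := by
  ext i j
  rw [mD, diagonal_pow, mul_diagonal, diagonal_mul, mM, of_apply, Pi.pow_apply, ← pow_mul]
  split_ifs with h
  · rw [one_mul, mul_one, h]
    exact pw hζ ((by decide : ∀ j : Fin 11, (j : ℕ) ^ 2 % 11 = ((2 * j : Fin 11) : ℕ) ^ 2 * 3 % 11) j)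
  · simp

/-- an element centralising `d` modulo `Z⟨t⟩` centralises `d` -/
theorem cend (hζ : IsPrimitiveRoot ζ 11) {y y' : Mt F} (ht : y * mT F = mT F * y) (h1 : y * y' = 1)
    (h2 : y' * y = 1) (hr : r5 y * r5 (mD ζ) = r5 (mD ζ) * r5 y)
    {c : F} (e : y * mD ζ = c • (1 : Mt F) * (mD ζ * y) ∨ y * mD ζ = c • mT F * (mD ζ * y)) :
    y * mD ζ = mD ζ * y := by
  rcases e with e | e
  · have := congrArg r5 e
    rw [smul_mul_assoc, one_mul, r5_smul, r5_mul _ ht, r5_mul _ (dT hζ), hr] at this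
    have t' : y' * mT F = mT F * y' := by
      rw [← mul_one (y' * mT F), ← h1, ← mul_assoc, mul_assoc y', ← ht, ← mul_assoc, h2, one_mul]
    have h3 := congrArg (fun z => (z * r5 y') 0 0) this
    simp only [smul_mul_assoc, mul_assoc, ← r5_mul _ t', h1, r5_one, mul_one] at h3
    rw [mD, r5_diag, Matrix.smul_apply, diagonal_apply_eq, smul_eq_mul] at h3
    rw [e, mul_right_cancel₀ (pow_ne_zero _ (hζ.ne_zero (by norm_num)))
      (h3.symm.trans (one_mul _).symm), one_smul, one_mul]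
  · exfalso
    have e1 : y * mD ζ * y' = c • (mT F * mD ζ) := by
      rw [e]; simp only [smul_mul_assoc, mul_assoc, h1, mul_one]
    have e2 : (y * mD ζ * y') ^ 11 = y * mD ζ ^ 11 * y' := by
      simp only [pow_succ, pow_zero, one_mul, mul_assoc, ← mul_assoc y' y, h2]
    rw [e1, d11 hζ, mul_one, h1, smul_pow, (show Commute (mT F) (mD ζ) from
      (dT hζ).symm).mul_pow, d11 hζ, mul_one, show mT F ^ 11 = mT F by
        simp only [pow_succ, pow_zero, one_mul, TT]] at e2
    have := congrFun (congrFun e2 0) 0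
    have h4 := congrFun (congrFun e2 1) 10
    simp +decide [mT] at this h4
    simp [h4] at this

theorem cen22 (h : Ctx ζ G) (hD : DG G) (hG : GM ζ G) {y : Mt F} (hy : In G y)
    (hc : y * mD ζ = mD ζ * y) : ∃ e : F, y ^ 22 = e • 1 := by
  have z : ∀ i j : Fin 11, j ≠ i → j ≠ -i → y i j = 0 := fun i j a b => by
    have := congrFun (congrFun hc i) j
    rw [mD, mul_diagonal, diagonal_mul, mul_comm, ← sub_eq_zero, ← sub_mul, mul_eq_zero,
      sub_eq_zero] at this
    refine this.resolve_left fun e => ?_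
    exact (by decide : ∀ i j : Fin 11, j ≠ i → j ≠ -i → (j : ℕ) ^ 2 % 11 ≠ (i : ℕ) ^ 2 % 11) i j a b
      (pi h.prim e)
  have hdg : y * y = diagonal fun i => (y * y) i i := by
    ext i j
    by_cases hij : i = j
    · simp [hij]
    rw [diagonal_apply_ne _ hij, mul_apply]
    refine Finset.sum_eq_zero fun k _ => ?_
    by_cases a : k = i
    · subst a
      by_cases b : j = -k
      · subst b
        rcases hG y hy hc k (by rintro rfl; simp at hij) with q | q <;> simp [q]
      · rw [z k j (Ne.symm hij) b, mul_zero]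
    by_cases b : k = -i
    · subst b
      by_cases b : j = -i
      · subst b
        rcases hG y hy hc i (by rintro rfl; simp at hij) with q | q <;> simp [q]
      · rw [z (-i) j b (by simpa using Ne.symm hij), mul_zero]
    · rw [z i k a b, zero_mul]
  obtain ⟨e, he⟩ := hD _ (hdg ▸ hy.mul hy)
  refine ⟨e, ?_⟩
  rw [show 22 = 2 * 11 from rfl, pow_mul, pow_two, hdg, diagonal_pow, smul_one_eq_diagonal]
  congr 1; ext i; exact he i

end Cfsg.Agent.C11.MitA
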