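import Mathlib

set_option autoImplicit false
open Matrix

namespace Cfsg.Agent.C11

namespace Q4

variable {K : Type*} [Field K]

theorem blk (h2 : (2 : K) ≠ 0) {J : Matrix (Fin 5) (Fin 5) K} (hJ : J * J = 1) :
    ∃ (r s : ℕ) (Φ : Matrix (Fin r ⊕ Fin s) (Fin r ⊕ Fin s) K ≃ₐ[K] Matrix (Fin 5) (Fin 5) K),
      r + s = 5 ∧ (∀ U, (Φ U).det = U.det) ∧ J = Φ (fromBlocks (-1) 0 0 1) := by
  let f := toLin' J
  have ff : ∀ v, f (f v) = v := fun v => by
    simp only [f, toLin'_apply, mulVec_mulVec, hJ, one_mulVec]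
  let p := LinearMap.ker (f + 1)
  let q := LinearMap.ker (f - 1)
  have hp : ∀ v, v ∈ p ↔ f v = -v := fun v => by
    simp only [p, LinearMap.mem_ker, LinearMap.add_apply, Module.End.one_apply, add_eq_zero_iff_eq_neg]
  have hq : ∀ v, v ∈ q ↔ f v = v := fun v => by
    simp only [q, LinearMap.mem_ker, LinearMap.sub_apply, Module.End.one_apply, sub_eq_zero]
  have hc : IsCompl p q := by
    refine ⟨Submodule.disjoint_def.2 fun v a b => ?_, codisjoint_iff.2 (eq_top_iff.2 fun v _ => ?_)⟩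
    · have : (2 : K) • v = 0 := by
        rw [two_smul, add_eq_zero_iff_eq_neg, ← (hp v).1 a, (hq v).1 b]
      exact (smul_eq_zero.1 this).resolve_left h2
    · refine Submodule.mem_sup.2 ⟨(2 : K)⁻¹ • (v - f v), p.smul_mem _ ((hp _).2 ?_),
        (2 : K)⁻¹ • (v + f v), q.smul_mem _ ((hq _).2 ?_), ?_⟩
      · rw [map_sub, ff, neg_sub]
      · rw [map_add, ff, add_comm]
      · rw [← smul_add, sub_add_add_cancel, ← two_smul K v, inv_smul_smul₀ h2]
  let b := ((Module.finBasis K p).prod (Module.finBasis K q)).map (Submodule.prodEquivOfIsCompl p q hc)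
  refine ⟨_, _, (toLinAlgEquiv b).trans LinearMap.toMatrixAlgEquiv', ?_, fun U => ?_, ?_⟩
  · simpa using Submodule.finrank_add_eq_of_isCompl hc
  · exact (LinearMap.det_toMatrix' _).trans (LinearMap.det_toLin b U)
  · have e : f = toLinAlgEquiv b (fromBlocks (-1) 0 0 1) := b.ext fun i => by
      rw [toLinAlgEquiv_self]
      rcases i with i | i
      · have : b (.inl i) ∈ p := by simp [b]
        rw [(hp _).1 this]
        simp [one_apply, ite_smul, apply_ite]
      · have : b (.inr i) ∈ q := by simp [b]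
        rw [(hq _).1 this]
        simp [one_apply, ite_smul]
    rw [AlgEquiv.trans_apply, ← e]
    exact (LinearMap.toMatrix'_toLin' J).symm

theorem quat [Finite K] {r : ℕ} (hr : r = 2 ∨ r = 4) : ∃ U V : Matrix (Fin r) (Fin r) K,
    U.det = 1 ∧ V.det = 1 ∧ U * U = -1 ∧ V * V = -1 ∧ U * V * U = V := by
  obtain ⟨p, hp⟩ := CharP.exists K
  have := Fintype.ofFinite K
  have : NeZero p := ⟨(CharP.char_is_prime K p).ne_zero⟩
  obtain ⟨a, b, h⟩ := CharP.sq_add_sq K p (-1)
  generalize (a : K) = x, (b : K) = y at h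
  push_cast at h
  rcases hr with rfl | rfl
  · refine ⟨!![0, 1; -1, 0], !![x, y; y, -x], by simp, ?_, ?_, ?_, ?_⟩
    · rw [det_fin_two_of]; linear_combination -h
    all_goals
      ext i j
      fin_cases i <;> fin_cases j <;> simp [mul_apply, Fin.sum_univ_succ] <;>
        first | linear_combination h | ring
  · refine ⟨!![0, 1, 0, 0; -1, 0, 0, 0; 0, 0, 0, 1; 0, 0, -1, 0],
      !![x, y, 0, 0; y, -x, 0, 0; 0, 0, x, y; 0, 0, y, -x], ?_, ?_, ?_, ?_, ?_⟩
    · simp [det_succ_row_zero, Fin.sum_univ_succ, Fin.succAbove]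
    · simp [det_succ_row_zero, Fin.sum_univ_succ, Fin.succAbove]
      linear_combination (x ^ 2 + y ^ 2 - 1) * h
    all_goals
      ext i j
      fin_cases i <;> fin_cases j <;> simp [mul_apply, Fin.sum_univ_succ] <;>
        first | linear_combination h | ring

end Q4

theorem q4 {K : Type*} [Field K] [Finite K] (h2 : (2 : K) ≠ 0) (g : GL (Fin 5) K) {a : K}
    (hg : g.1 * g.1 = a • 1) (hn : ∀ c : K, g.1 ≠ c • 1) :
    ∃ u v : GL (Fin 5) K, u.1.det = 1 ∧ v.1.det = 1 ∧ ∃ e : K, u.1 * u.1 = e • g.1 ∧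
      v.1 * v.1 = e • g.1 ∧ u * v * u = v := by
  have d0 : g.1.det ≠ 0 := g.det_ne_zero
  have h1 := congrArg det hg
  rw [det_mul, det_smul, det_one, mul_one, Fintype.card_fin] at h1
  have a0 : a ≠ 0 := by
    rintro rfl
    exact d0 (mul_self_eq_zero.1 (by simpa using h1))
  have e1 : a ^ 2 / g.1.det * (a ^ 2 / g.1.det) * a = 1 := by
    field_simp
    linear_combination -h1
  have e2 : (a ^ 2 / g.1.det) ^ 5 * g.1.det = 1 := by
    field_simp
    linear_combination -(g.1.det * g.1.det + a ^ 5) * h1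
  generalize a ^ 2 / g.1.det = e at e1 e2
  have e0 : e ≠ 0 := fun h => by simp [h] at e1
  obtain ⟨r, s, Φ, hrs, hd, hJ⟩ := Q4.blk h2 (J := e • g.1) (by
    rw [smul_mul_smul_comm, hg, smul_smul, e1, one_smul])
  have h3 := congrArg det hJ
  rw [hd, det_smul, Fintype.card_fin, e2, det_fromBlocks_zero₂₁, det_one, mul_one, det_neg, det_one,
    mul_one, Fintype.card_fin] at h3
  have h4 : Even r := (neg_one_pow_eq_one_iff_even (fun h => h2 (by linear_combination -h))).1 h3.symm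
  have h5 : r ≠ 0 := by
    rintro rfl
    refine hn e⁻¹ ?_
    rw [show (-1 : Matrix (Fin 0) (Fin 0) K) = 1 from Subsingleton.elim _ _, fromBlocks_one,
      map_one] at hJ
    rw [← hJ, inv_smul_smul₀ e0]
  obtain ⟨U, V, d1, d2, q1, q2, q3⟩ := Q4.quat (K := K) (r := r) (by
    obtain ⟨k, hk⟩ := h4
    omega)
  have dd : ∀ U : Matrix (Fin r) (Fin r) K, U.det = 1 → (Φ (fromBlocks U 0 0 1)).det = 1 :=
    fun U h => by rw [hd, det_fromBlocks_zero₂₁, h, det_one, mul_one]
  refine ⟨GeneralLinearGroup.mkOfDetNeZero _ ((dd U d1).trans_ne one_ne_zero),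
    GeneralLinearGroup.mkOfDetNeZero _ ((dd V d2).trans_ne one_ne_zero), dd U d1, dd V d2, e, ?_, ?_,
    Units.ext ?_⟩
  · change Φ _ * Φ _ = _
    rw [hJ, ← map_mul, fromBlocks_multiply]
    simp [q1]
  · change Φ _ * Φ _ = _
    rw [hJ, ← map_mul, fromBlocks_multiply]
    simp [q2]
  · change Φ _ * Φ _ * Φ _ = Φ _
    rw [← map_mul, ← map_mul, fromBlocks_multiply, fromBlocks_multiply]
    simp [q3]

end Cfsg.Agent.C11
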