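import Cfsg.Agent.C11.RP

/-! A reflection gives a transvection. -/

set_option autoImplicit false
open Matrix

namespace Cfsg.Agent.C11
namespace Refl

open Cfsg.Agent.H6 Cfsg.Agent.H6.Pg Cfsg.Agent.C11.RP
open Cfsg.Agent.C7.P2 (M2 dk tau_small ord_small)
open scoped MatrixGroups

variable {F : Type*} [Field F] {ζ : F} {G : Subgroup (GL (Fin 11) F)}

/-- the traceless matrices -/
def xi (a c : F) (v : Fin 3 → F) : M2 F :=
  !![v 1 * a - v 2 * c, -v 0 + v 1 * c + v 2 * a;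
    v 0 + v 1 * c + v 2 * a, -(v 1 * a) + v 2 * c]

/-- the reflection -/
def rf (w : Fin 3 → F) : Matrix (Fin 3) (Fin 3) F := 1 - (2 / (w ⬝ᵥ w)) • vecMulVec w w

variable {a c : F}

theorem pol (h : a ^ 2 + c ^ 2 = -1) (v w : Fin 3 → F) :
    xi a c v * xi a c w + xi a c w * xi a c v = (-2 * (w ⬝ᵥ v)) • (1 : M2 F) := by
  ext i j
  fin_cases i <;> fin_cases j <;> simp [xi, dotProduct, Fin.sum_univ_three]
  · linear_combination (2 * v 1 * w 1 + 2 * v 2 * w 2) * h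
  · ring
  · ring
  · linear_combination (2 * v 1 * w 1 + 2 * v 2 * w 2) * h

theorem xi_sq (h : a ^ 2 + c ^ 2 = -1) (w : Fin 3 → F) :
    xi a c w * xi a c w = (-(w ⬝ᵥ w)) • (1 : M2 F) := by
  ext i j
  fin_cases i <;> fin_cases j <;> simp [xi, dotProduct, Fin.sum_univ_three]
  · linear_combination (w 1 * w 1 + w 2 * w 2) * h
  · ring
  · ring
  · linear_combination (w 1 * w 1 + w 2 * w 2) * h

theorem xi_det (h : a ^ 2 + c ^ 2 = -1) (w : Fin 3 → F) : (xi a c w).det = w ⬝ᵥ w := by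
  simp [xi, det_fin_two, dotProduct, Fin.sum_univ_three]
  linear_combination (-(w 1 * w 1) - w 2 * w 2) * h

theorem xi_sub (v w : Fin 3 → F) (k : F) : xi a c (v - k • w) = xi a c v - k • xi a c w := by
  ext i j
  fin_cases i <;> fin_cases j <;> simp [xi] <;> ring

theorem xi_rf (h : a ^ 2 + c ^ 2 = -1) {w : Fin 3 → F} (hw : w ⬝ᵥ w ≠ 0) (v : Fin 3 → F) :
    xi a c w * xi a c v = -(xi a c (rf w *ᵥ v) * xi a c w) := by
  have e : rf w *ᵥ v = v - (2 / (w ⬝ᵥ w) * (w ⬝ᵥ v)) • w := by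
    rw [rf, sub_mulVec, one_mulVec, smul_mulVec, vecMulVec_mulVec, mul_smul]
    simp
  rw [e, xi_sub, sub_mul, smul_mul_assoc, xi_sq h, smul_smul,
    show 2 / (w ⬝ᵥ w) * (w ⬝ᵥ v) * -(w ⬝ᵥ w) = -2 * (w ⬝ᵥ v) by field_simp,
    ← pol h]
  abel

/-- `T` is the action of `A` by conjugation -/
def Ad (a c : F) (A : M2 F) (T : Matrix (Fin 3) (Fin 3) F) : Prop :=
  ∀ v, A * xi a c v = xi a c (T *ᵥ v) * A

theorem Ad.mul {A B : M2 F} {T S : Matrix (Fin 3) (Fin 3) F} (h : Ad a c A T) (h' : Ad a c B S) :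
    Ad a c (A * B) (T * S) := fun v => by
  rw [mul_assoc, h', ← mul_assoc, h, mulVec_mulVec, mul_assoc]

theorem ad_rf (h : a ^ 2 + c ^ 2 = -1) {w u : Fin 3 → F} (hw : w ⬝ᵥ w ≠ 0)
    (hu : u ⬝ᵥ u ≠ 0) : Ad a c (xi a c w * xi a c u) (rf w * rf u) := fun v => by
  rw [mul_assoc, xi_rf h hu, mul_neg, ← mul_assoc, xi_rf h hw, neg_mul, neg_neg, mulVec_mulVec,
    mul_assoc]

theorem Ad.uniq (h : a ^ 2 + c ^ 2 = -1) (h2 : (2 : F) ≠ 0) {A : M2 F}
    {T S : Matrix (Fin 3) (Fin 3) F} (hA : A.det ≠ 0) (h1 : Ad a c A T) {k : F}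
    (hk : k ≠ 0) (h3 : Ad a c (k • A) S) : S = T := by
  have h10 : (-2 : F) ≠ 0 := neg_ne_zero.2 h2
  refine Matrix.ext_iff_mulVec.2 fun v => ?_
  have e := h3 v
  rw [smul_mul_assoc, mul_smul_comm, h1] at e
  have e1 := smul_right_injective _ hk e
  have e2 : xi a c (T *ᵥ v - (1 : F) • S *ᵥ v) = 0 := by
    rw [xi_sub, one_smul, sub_eq_zero]
    exact (isUnit_iff_isUnit_det _ |>.2 (isUnit_iff_ne_zero.2 hA)).mul_right_cancel e1
  have e3 : ∀ w, w ⬝ᵥ (T *ᵥ v - (1 : F) • S *ᵥ v) = 0 := fun w => by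
    have := congrFun (congrFun (pol h (T *ᵥ v - (1 : F) • S *ᵥ v) w) 0) 0
    rw [e2] at this
    simp only [mul_zero, zero_mul, add_zero, Matrix.zero_apply, Matrix.smul_apply, one_apply_eq,
      smul_eq_mul, mul_one] at this
    exact (mul_eq_zero.1 this.symm).resolve_left h10
  rw [one_smul] at e3
  symm
  rw [← sub_eq_zero]
  generalize T *ᵥ v - S *ᵥ v = d at e3
  have a0 := e3 ![1, 0, 0]
  have a1 := e3 ![0, 1, 0]
  have a2 := e3 ![0, 0, 1]
  simp [dotProduct, Fin.sum_univ_three] at a0 a1 a2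
  ext i
  fin_cases i <;> simp [a0, a1, a2]

/-- vectors which are constant on the last coordinates -/
def vc (x y z : F) : Fin 11 → F := fun i => if i = 0 then x else if i = 1 then y else z

/-- the block of dimension three -/
def P3 (F : Type*) [Field F] : Matrix (Fin 11) (Fin 3) F :=
  of fun i j => vc (![1, 0, 0] j) (![0, 1, 0] j) (![0, 0, 3⁻¹] j) i

theorem QP3 (h3 : (3 : F) ≠ 0) : (P3 F)ᵀ * P3 F = 1 := by
  ext i j
  fin_cases i <;> fin_cases j <;> simp +decide [P3, vc, mul_apply, Fin.sum_univ_succ]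
  field_simp
  norm_num

theorem em_rf {κ : Type*} [Fintype κ] [DecidableEq κ] (P : Matrix (Fin 11) κ F)
    (Q : Matrix κ (Fin 11) F) (k : F) (x y : κ → F) :
    em P Q 1 (1 - k • vecMulVec x y) = 1 - k • vecMulVec (P *ᵥ x) (y ᵥ* Q) := by
  rw [RP.em, sub_sub_cancel_left, Matrix.mul_neg, Matrix.neg_mul, Matrix.mul_smul, Matrix.smul_mul,
    mul_vecMulVec, vecMulVec_mul, sub_eq_add_neg]

theorem em3 (x y z : F) : em (P3 F) (P3 F)ᵀ 1 (rf ![x, y, z]) =
    1 - (2 / (x * x + y * y + z * z)) • vecMulVec (vc x y (z / 3)) (vc x y (z / 3)) := by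
  have : P3 F *ᵥ ![x, y, z] = vc x y (z / 3) := by
    ext i
    simp only [P3, vc, mulVec, dotProduct, Fin.sum_univ_three, of_apply]
    split_ifs <;> simp [div_eq_inv_mul]
  rw [rf, em_rf, vecMul_transpose, this]
  congr 3
  simp [dotProduct, Fin.sum_univ_three]

/-- the group induced on the block of dimension three -/
def M3 [Finite F] (G : Subgroup (GL (Fin 11) F)) (a c : F) (h3 : (3 : F) ≠ 0) : Subgroup PGL(2, F) :=
  let N : Submonoid PGL(2, F) :=
    { carrier := {g | ∃ A T, A.det ≠ 0 ∧ pg A = g ∧ Ad a c A T ∧ In G (em (P3 F) (P3 F)ᵀ 1 T)}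
      one_mem' := ⟨1, 1, by simp, pg_one, fun v => by simp, by rw [em_one]; exact In.one⟩
      mul_mem' := by
        rintro _ _ ⟨A, D, a1, rfl, a3, a6⟩ ⟨B, E, b1, rfl, b3, b6⟩
        refine ⟨A * B, D * E, by simp [a1, b1], (pg_mul a1 b1).symm, a3.mul b3, ?_⟩
        rw [← em_mul1 (QP3 h3)]
        exact a6.mul b6 }
  { N with
    inv_mem' := fun {g} hg => by
      have : g⁻¹ = g ^ (orderOf g - 1) := by
        rw [inv_eq_iff_mul_eq_one, ← pow_succ', Nat.sub_add_cancel (orderOf_pos g),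
          pow_orderOf_eq_one]
      rw [this]
      exact N.pow_mem hg _ }

theorem ent {L : Subfield F} {A : M2 F} (hA : A.det ≠ 0) (ht : A.trace = -2) (h10 : (-2 : F) ≠ 0)
    (hm : pg A ∈ PG L) (i j : Fin 2) : A i j ∈ L := by
  obtain ⟨Z, z1, z2, z3⟩ := mem_PG.1 hm
  obtain ⟨k, rfl⟩ := (pg_eq_iff z1 hA).1 z3
  rw [trace_smul, smul_eq_mul] at ht
  have h1 : Z.trace ≠ 0 := fun e => h10 (by rw [← ht, e, mul_zero])
  have h2 : Z.trace ∈ L := by rw [trace_fin_two]; exact add_mem (z2 _ _) (z2 _ _)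
  have h3 : k = -2 / Z.trace := eq_div_of_mul_eq h1 ht
  rw [Matrix.smul_apply, smul_eq_mul, h3]
  exact mul_mem (div_mem (neg_mem (ofNat_mem L 2)) h2) (z2 i j)

theorem sgn0 (hm : In G (mH (-1 : F))) :
    In G (1 - (2 : F) • vecMulVec (vc 1 0 0) (vc 1 0 0)) := by
  convert hm using 1
  ext i j
  by_cases hi : i = 0 <;> by_cases hj : j = 0 <;>
    simp [mH, vc, vecMulVec_apply, hi, hj, one_apply, diagonal_apply, @eq_comm _ (0 : Fin 11) j]
  norm_num

theorem sgn1 (h : Ctx ζ G) (hm : In G (mH (-1 : F))) :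
    In G (1 - (2 : F) • vecMulVec (vc 0 1 0) (vc 0 1 0)) := by
  obtain ⟨M', h1, h2, -⟩ := h.b.exists_inv
  have e0 : (1 - (2 : F) • vecMulVec (vc 0 1 0) (vc 0 1 0) : Mt F) =
      diagonal fun i => if i = 1 then -1 else 1 := by
    ext i j
    by_cases hi : i = 1 <;> by_cases hj : j = 1 <;>
      simp [vc, vecMulVec_apply, hi, hj, one_apply, diagonal_apply, @eq_comm _ (1 : Fin 11) j]
    norm_num
  have e : mB F * mH (-1) = (diagonal fun i => if i = 1 then -1 else 1) * mB F := by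
    ext i j
    simp only [diagonal_mul, mul_diagonal, mB, mH, of_apply]
    by_cases hij : i = j + 1
    · simp [hij]
    · simp [hij]
  have := (h.b.mul hm).mul h1
  rwa [e, mul_assoc, h2, mul_one, ← e0] at this

theorem el_ne (h : IsPrimitiveRoot ζ 11) : (11 : F) ≠ 0 := by
  have := h.neZero'
  exact_mod_cast NeZero.ne ((11 : ℕ) : F)

theorem sgnU (h : Ctx ζ G) (hm : In G (mH (-1 : F))) :
    In G (1 - (2 / 11 : F) • vecMulVec (fun _ => 1) (fun _ => 1)) := by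
  obtain ⟨M', h1, h2, -⟩ := h.w.exists_inv
  have h7 := el_ne h.prim
  have e : mW ζ * mH (-1) =
      (1 - (2 / 11 : F) • vecMulVec (fun _ => 1) (fun _ => 1)) * mW ζ := by
    rw [sub_mul, one_mul, smul_mul_assoc, vecMulVec_mul]
    ext i j
    simp only [mH, mul_diagonal, Matrix.sub_apply, Matrix.smul_apply, vecMulVec_apply, vecMul,
      dotProduct, mW, of_apply, one_mul, smul_eq_mul]
    split_ifs with hj
    · subst hj
      simp
      field_simp
      norm_num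
    · have h3 := (h.prim.pow_of_coprime j ((Nat.coprime_comm.1 ((Nat.Prime.coprime_iff_not_dvd
        (by norm_num)).2 (Nat.not_dvd_of_pos_of_lt (Fin.pos_iff_ne_zero.2 hj) j.2))))).geom_sum_eq_zero
        (by norm_num)
      rw [← Fin.sum_univ_eq_sum_range (fun i => (ζ ^ (j : ℕ)) ^ i)] at h3
      simp only [← pow_mul, mul_comm (j : ℕ)] at h3
      simp [h3]
  have := (h.w.mul hm).mul h1
  rwa [e, mul_assoc, h2, mul_one] at this

theorem tv0 {k : F} (hk : k ≠ 0) (h2 : (2 : F) ≠ 0) {v φ w ψ : Fin 11 → F} (h1 : k * (φ ⬝ᵥ v) = 2)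
    (h3 : k * (ψ ⬝ᵥ w) = 2) (h4 : φ ⬝ᵥ w ≠ 0) (h5 : ψ ⬝ᵥ v = 0)
    (r1 : In G (1 - k • vecMulVec v φ)) (r2 : In G (1 - k • vecMulVec w ψ)) : TVx G := by
  refine ⟨(-k * k * (φ ⬝ᵥ w)) • v, ψ, smul_ne_zero (by simp [hk, h4]) ?_, ?_, ?_, ?_⟩
  · rintro rfl; exact h2 (by simpa using h1.symm)
  · rintro rfl; exact h2 (by simpa using h3.symm)
  · simp [h5]
  · convert (r1.mul r2).mul (r1.mul r2) using 1
    simp only [mul_sub, sub_mul, one_mul, mul_one, smul_mul_assoc, mul_smul_comm,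
      vecMulVec_mul_vecMulVec, h5, zero_smul, vecMulVec_zero, smul_zero, vecMulVec_smul,
      smul_vecMulVec, smul_smul]
    have e1 : φ ⬝ᵥ v = 2 / k := by field_simp; linear_combination h1
    have e3 : ψ ⬝ᵥ w = 2 / k := by field_simp; linear_combination h3
    rw [e1, e3]
    match_scalars <;> field_simp <;> ring

theorem small (h : Ctx ζ G) (h2 : (2 : F) ≠ 0) (h15 : (15 : F) = 0) (hm : In G (mH (-1 : F))) :
    TVx G := by
  have h11 := el_ne h.prim
  have z : ζ ^ 11 = 1 := h.prim.pow_eq_one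
  have z0 : ζ ≠ 0 := h.prim.ne_zero (by norm_num)
  have hs := h.prim.geom_sum_eq_zero (by norm_num)
  simp only [Finset.sum_range_succ, Finset.sum_range_zero] at hs
  let x : Fin 11 → F := fun i => (if i = 0 then -1 else 1) * ζ ^ ((i : ℕ) ^ 2 % 11)
  let y : Fin 11 → F := fun i => (if i = 0 then -1 else 1) * ζ ^ (10 * (i : ℕ) ^ 2 % 11)
  have hxy : ∀ i, x i * y i = 1 := fun i => by
    simp only [x, y, ← pow_eq_pow_mod _ z]
    rw [mul_mul_mul_comm, ← pow_add, show (i : ℕ) ^ 2 + 10 * (i : ℕ) ^ 2 = 11 * (i : ℕ) ^ 2 by ring,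
      pow_mul, z]
    split_ifs <;> simp
  have dx : In G (diagonal x) := by
    have := hm.mul h.d
    rw [mH, mD, diagonal_mul_diagonal] at this
    simpa only [x, ← pow_eq_pow_mod _ z] using this
  have dy : In G (diagonal y) := dx.inv (by rw [diagonal_mul_diagonal]; simp [hxy])
  have r1 := sgnU h hm
  have r2 : In G (1 - (2 / 11 : F) • vecMulVec x y) := by
    have := (dx.mul r1).mul dy
    rw [mul_sub, sub_mul, mul_one, diagonal_mul_diagonal, mul_smul_comm, smul_mul_assoc,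
      mul_vecMulVec, vecMulVec_mul] at this
    have a1 : (diagonal x *ᵥ fun _ => 1) = x := by ext i; simp [mulVec_diagonal]
    have a2 : ((fun _ => 1) ᵥ* diagonal y) = y := by ext i; simp [vecMul_diagonal]
    simpa only [a1, a2, hxy, diagonal_one] using this
  have hk : (2 / 11 : F) ≠ 0 := div_ne_zero h2 h11
  have s1 : (2 / 11 : F) * ((fun _ : Fin 11 => (1 : F)) ⬝ᵥ fun _ => 1) = 2 := by
    simp [dotProduct]; field_simp
  have s2 : (2 / 11 : F) * (y ⬝ᵥ x) = 2 := by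
    simp [dotProduct, mul_comm (y _), hxy]; field_simp
  have sx : (fun _ : Fin 11 => (1 : F)) ⬝ᵥ x = -1 + 2 * (ζ + ζ ^ 3 + ζ ^ 4 + ζ ^ 5 + ζ ^ 9) := by
    simp +decide [dotProduct, x, Fin.sum_univ_succ]; ring
  have sy : y ⬝ᵥ (fun _ : Fin 11 => (1 : F)) = -1 + 2 * (ζ ^ 2 + ζ ^ 6 + ζ ^ 7 + ζ ^ 8 + ζ ^ 10) := by
    simp +decide [dotProduct, y, Fin.sum_univ_succ]; ring
  have pr : ((fun _ : Fin 11 => (1 : F)) ⬝ᵥ x) * (y ⬝ᵥ fun _ => 1) = 0 := by
    rw [sx, sy]
    linear_combination h15 + (-14 + 12 * ζ + 4 * ζ ^ 3 - 4 * ζ ^ 4 + 4 * ζ ^ 5 + 4 * ζ ^ 7 -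
      4 * ζ ^ 8 + 4 * ζ ^ 9) * hs
  have sm : ((fun _ : Fin 11 => (1 : F)) ⬝ᵥ x) + (y ⬝ᵥ fun _ => 1) = -(2 * 2) := by
    rw [sx, sy]
    linear_combination 2 * hs
  have h4 : -(2 * 2 : F) ≠ 0 := neg_ne_zero.2 (mul_ne_zero h2 h2)
  rcases mul_eq_zero.1 pr with e | e
  · exact tv0 hk h2 s2 s1 (fun e' => h4 (by rw [← sm, e, e', add_zero])) e r2 r1
  · exact tv0 hk h2 s1 s2 (fun e' => h4 (by rw [← sm, e, e', add_zero])) e r1 r2

theorem rot [Fintype F] (p : ℕ) [Fact p.Prime] [CharP F p] (h2 : (2 : F) ≠ 0) (h3 : (3 : F) ≠ 0)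
    (h5 : (5 : F) ≠ 0) (h7 : (7 : F) ≠ 0) (h : Ctx ζ G) (hm : In G (mH (-1 : F))) :
    In G (1 - (2 / 25 : F) • vecMulVec (vc 3 4 0) (vc 3 4 0)) := by
  have h175 := el_ne h.prim
  have h10 : (-2 : F) ≠ 0 := neg_ne_zero.2 h2
  have h25 : (25 : F) ≠ 0 := by
    rw [show (25 : F) = 5 * 5 by norm_num]; exact mul_ne_zero h5 h5
  obtain ⟨a, c, hac⟩ := H8.exists_quad_add_quad h2 (a := 1) (b := 1) one_ne_zero one_ne_zero (-1)
  replace hac : a ^ 2 + c ^ 2 = -1 := by linear_combination hac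
  have d0 : (![1, 0, 0] : Fin 3 → F) ⬝ᵥ ![1, 0, 0] = 1 := by simp
  have d1 : (![0, 1, 0] : Fin 3 → F) ⬝ᵥ ![0, 1, 0] = 1 := by simp
  have dU : (![1, 1, 3] : Fin 3 → F) ⬝ᵥ ![1, 1, 3] = 11 := by simp; norm_num
  have dY : (![3, 4, 0] : Fin 3 → F) ⬝ᵥ ![3, 4, 0] = 25 := by simp; norm_num
  have r0 : In G (em (P3 F) (P3 F)ᵀ 1 (rf ![1, 0, 0])) := by
    rw [em3]; simpa using sgn0 hm
  have r1 : In G (em (P3 F) (P3 F)ᵀ 1 (rf ![0, 1, 0])) := by
    rw [em3]; simpa using sgn1 h hm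
  have rU : In G (em (P3 F) (P3 F)ᵀ 1 (rf ![1, 1, 3])) := by
    rw [em3, show (1 : F) * 1 + 1 * 1 + 3 * 3 = 11 by norm_num, div_self h3,
      show vc (1 : F) 1 1 = fun _ => 1 by ext i; simp [vc]]
    exact sgnU h hm
  set A := xi a c ![1, 0, 0] * xi a c ![1, 1, 3] with hA
  set B := xi a c ![0, 1, 0] * xi a c ![1, 1, 3] with hB
  have dA : A.det = 11 := by rw [hA, det_mul, xi_det hac, xi_det hac, d0, dU]; norm_num
  have dB : B.det = 11 := by rw [hB, det_mul, xi_det hac, xi_det hac, d1, dU]; norm_num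
  have tA : A.trace = -2 := by
    simp [hA, xi, trace_fin_two]; ring
  have tB : B.trace = -2 := by
    simp [hB, xi, trace_fin_two]; linear_combination 2 * hac
  have mA : pg A ∈ M3 G a c h3 := ⟨A, _, dA ▸ h175, rfl,
    ad_rf hac (by rw [d0]; exact one_ne_zero) (by rw [dU]; exact h175),
    by rw [← em_mul1 (QP3 h3)]; exact r0.mul rU⟩
  have mB : pg B ∈ M3 G a c h3 := ⟨B, _, dB ▸ h175, rfl,
    ad_rf hac (by rw [d1]; exact one_ne_zero) (by rw [dU]; exact h175),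
    by rw [← em_mul1 (QP3 h3)]; exact r1.mul rU⟩
  have eY : xi a c ![3, 4, 0] * xi a c ![1, 0, 0] =
      (5 : F) • ((-3 / 5 : F) • (1 : M2 F) - (4 / 55 : F) • (A * B + (2 : F) • A)) := by
    have e1 : A * B + (2 : F) • A = (11 : F) • xi a c ![0, 0, 1] := by
      ext i j
      fin_cases i <;> fin_cases j <;> simp [hA, hB, xi] <;> grind
    have h875 : (55 : F) ≠ 0 := by
      rw [show (55 : F) = 5 * 11 by norm_num]; exact mul_ne_zero h5 h175
    rw [e1]
    ext i j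
    fin_cases i <;> fin_cases j <;> simp [xi] <;> field_simp <;> ring
  have hc : (A * B - B * A).det ≠ 0 := by
    have e1 : A * B - B * A = (6 : F) • xi a c ![1, 1, 3] := by
      ext i j
      fin_cases i <;> fin_cases j <;> simp [hA, hB, xi] <;> grind
    rw [e1, det_smul, xi_det hac, dU, show (6 : F) = 2 * 3 by norm_num]
    exact mul_ne_zero (pow_ne_zero _ (mul_ne_zero h2 h3)) h175
  have key : pg (xi a c ![3, 4, 0] * xi a c ![1, 0, 0]) ∈ M3 G a c h3 := by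
    rcases dk p _ (dA ▸ h175) (dB ▸ h175) (tA ▸ h10) (tB ▸ h10) hc mA mB with H | ⟨k, L, l1, l2⟩
    · exfalso
      have hne : A 0 1 ≠ 0 ∨ B 0 1 ≠ 0 := by
        by_contra! hh
        apply hc
        simp [det_fin_two, mul_apply, Fin.sum_univ_two, hh.1, hh.2]
        ring_nf
        simp
      have : (4 / 11 : F) = 0 ∨ (4 / 11 : F) = 1 ∨ (4 / 11 : F) = 2 ∨
          (4 / 11 : F) ^ 2 - 3 * (4 / 11) + 1 = 0 := by
        rcases hne with e | e
        · exact tau_small H (dA ▸ h175) e mA (by rw [tA, dA]; field_simp; norm_num)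
        · exact tau_small H (dB ▸ h175) e mB (by rw [tB, dB]; field_simp; norm_num)
      rcases this with e | e | e | e <;> field_simp at e
      · exact h2 (pow_eq_zero_iff two_ne_zero |>.1 (by linear_combination e))
      · exact h7 (by linear_combination -e)
      · exact mul_ne_zero h2 (mul_ne_zero h3 h3) (by linear_combination -e)
      · exact h5 (by linear_combination e)
    · obtain ⟨H, hH, rfl⟩ := exists_pg k
      have hu : IsUnit H.det := isUnit_iff_ne_zero.2 hH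
      have i1 := Matrix.mul_nonsing_inv H hu
      have i2 := Matrix.nonsing_inv_mul H hu
      have i3 : H.det * H⁻¹.det = 1 := by rw [← det_mul, i1, det_one]
      have hH' : H⁻¹.det ≠ 0 := right_ne_zero_of_mul_eq_one i3
      have e0 : (pg H)⁻¹ = pg H⁻¹ := by
        rw [inv_eq_iff_mul_eq_one, pg_mul hH hH', i1, pg_one]
      have dc : ∀ N : M2 F, (H * N * H⁻¹).det = N.det := fun N => by
        rw [det_mul, det_mul, mul_right_comm, i3, one_mul]
      have pc : ∀ N : M2 F, N.det ≠ 0 → pg H * pg N * (pg H)⁻¹ = pg (H * N * H⁻¹) := fun N hN => by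
        rw [e0, pg_mul hH hN, pg_mul (by rw [det_mul]; exact mul_ne_zero hH hN) hH']
      have en : ∀ N : M2 F, N.det = 11 → N.trace = -2 → pg N ∈ M3 G a c h3 →
          ∀ i j, (H * N * H⁻¹) i j ∈ L := fun N n1 n2 n3 =>
        ent (by rw [dc, n1]; exact h175) (by rw [trace_mul_comm, ← mul_assoc, i2, one_mul, n2]) h10
          (by rw [← pc N (n1 ▸ h175)]; exact l2 (conj_mem_cj.2 n3))
      have eA := en A dA tA mA
      have eB := en B dB tB mB
      have dZ := congrArg det eY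
      rw [det_mul, xi_det hac, xi_det hac, d0, dY, det_smul, Fintype.card_fin] at dZ
      rw [eY, pg_smul h5]
      set Z := (-3 / 5 : F) • (1 : M2 F) - (4 / 55 : F) • (A * B + (2 : F) • A) with hZ
      have dZ' : Z.det = 1 := mul_left_cancel₀ (pow_ne_zero 2 h5) (by linear_combination -dZ)
      rw [← conj_mem_cj (h := pg H), pc Z (by rw [dZ']; exact one_ne_zero)]
      refine l1 (mem_PS.2 ⟨_, by rw [dc, dZ'], fun i j => ?_, rfl⟩)
      have e5 : H * Z * H⁻¹ = (-3 / 5 : F) • (1 : M2 F) - (4 / 55 : F) •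
          ((H * A * H⁻¹) * (H * B * H⁻¹) + (2 : F) • (H * A * H⁻¹)) := by
        rw [hZ, mul_sub, sub_mul, mul_smul_comm, smul_mul_assoc, mul_one, i1, mul_smul_comm,
          smul_mul_assoc, mul_add, add_mul, mul_smul_comm, smul_mul_assoc]
        simp only [mul_assoc]
        rw [← mul_assoc H⁻¹ H, i2, one_mul]
      rw [e5]
      generalize H * A * H⁻¹ = A' at eA
      generalize H * B * H⁻¹ = B' at eB
      simp only [Matrix.sub_apply, Matrix.smul_apply, Matrix.add_apply, smul_eq_mul, mul_apply,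
        Fin.sum_univ_two]
      refine sub_mem (mul_mem (div_mem (neg_mem (ofNat_mem L 3)) (ofNat_mem L 5)) ?_)
        (mul_mem (div_mem (ofNat_mem L 4) (ofNat_mem L 55)) (add_mem (add_mem
          (mul_mem (eA _ _) (eB _ _)) (mul_mem (eA _ _) (eB _ _))) (mul_mem (ofNat_mem L 2) (eA _ _))))
      rw [one_apply]
      split_ifs
      · exact one_mem L
      · exact zero_mem L
  obtain ⟨N, T, n1, n2, n3, n4⟩ := key
  have dd : (xi a c ![3, 4, 0] * xi a c ![1, 0, 0]).det ≠ 0 := by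
    rw [det_mul, xi_det hac, xi_det hac, d0, dY]
    exact mul_ne_zero h25 one_ne_zero
  obtain ⟨k, hk⟩ := (pg_eq_iff dd n1).1 n2.symm
  have hk0 : k ≠ 0 := by rintro rfl; simp [← hk] at n1
  rw [Ad.uniq hac h2 dd (ad_rf hac (by rw [dY]; exact h25) (by rw [d0]; exact one_ne_zero)) hk0
    (S := T) (by rw [hk]; exact n3),
    ← em_mul1 (QP3 h3)] at n4
  obtain ⟨M', m1, m2, -⟩ := r0.exists_inv
  have := n4.mul m1
  rw [mul_assoc, m2, mul_one, em3, show (3 : F) * 3 + 4 * 4 + 0 * 0 = 25 by norm_num, zero_div] at this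
  exact this

/-- the block of dimension two -/
def P2' (F : Type*) [Field F] : Matrix (Fin 11) (Fin 2) F :=
  of fun i j => vc (![0, 1] j) (![1, 0] j) 0 i

theorem QP2 : (P2' F)ᵀ * P2' F = 1 := by
  ext i j
  fin_cases i <;> fin_cases j <;> simp +decide [P2', vc, mul_apply, Fin.sum_univ_succ]

theorem em2 (k x y : F) : em (P2' F) (P2' F)ᵀ 1 (1 - k • vecMulVec ![y, x] ![y, x]) =
    1 - k • vecMulVec (vc x y 0) (vc x y 0) := by
  rw [em_rf, vecMul_transpose]
  have : P2' F *ᵥ ![y, x] = vc x y 0 := by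
    ext i
    simp only [P2', vc, mulVec, dotProduct, Fin.sum_univ_two, of_apply]
    split_ifs <;> simp
  rw [this]

end Refl

open Cfsg.Agent.C7.P2 (M2 dk ord_small) in
open Refl Cfsg.Agent.H6 Cfsg.Agent.H6.Pg Cfsg.Agent.C11.RP in
theorem refl {F : Type*} [Field F] [Fintype F] {ζ : F} {G : Subgroup (GL (Fin 11) F)} {p : ℕ}
    (hF : FH F p) (h : Ctx ζ G) (hm : In G (mH (-1 : F))) : TVx G := by
  have : Fact p.Prime := ⟨hF.1⟩
  have := hF.2.1
  have h2 : (2 : F) ≠ 0 := by exact_mod_cast nz hF Nat.prime_two (by omega)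
  have h7 : (7 : F) ≠ 0 := by exact_mod_cast nz hF (r := 7) (by norm_num) (by omega)
  by_cases h15 : (15 : F) = 0
  · exact small h h2 h15 hm
  have h3 : (3 : F) ≠ 0 := fun e => h15 (by linear_combination 5 * e)
  have h5 : (5 : F) ≠ 0 := fun e => h15 (by linear_combination 3 * e)
  have h25 : (25 : F) ≠ 0 := by
    rw [show (25 : F) = 5 * 5 by norm_num]; exact mul_ne_zero h5 h5
  have h24 : (24 : F) ≠ 0 := by
    rw [show (24 : F) = 2 ^ 3 * 3 by norm_num]; exact mul_ne_zero (pow_ne_zero _ h2) h3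
  have z0 : ζ ≠ 0 := h.prim.ne_zero (by norm_num)
  have z1 : ζ - 1 ≠ 0 := sub_ne_zero.2 (h.prim.ne_one (by norm_num))
  have z2 : ζ + 1 ≠ 0 := fun e => h2 (by
    have := h.prim.pow_eq_one
    rw [eq_neg_of_add_eq_zero_left e] at this
    linear_combination -this)
  have b1 := (rot p h2 h3 h5 h7 h hm).mul (sgn0 hm)
  rw [← em2, ← em2, em_mul1 QP2] at b1
  have e : ((1 : M2 F) - (2 / 25 : F) • vecMulVec ![4, 3] ![4, 3]) *
      (1 - (2 : F) • vecMulVec ![0, 1] ![0, 1]) = !![-7 / 25, 24 / 25; -24 / 25, -7 / 25] := by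
    ext i j
    fin_cases i <;> fin_cases j <;> simp [mul_apply, Fin.sum_univ_two, vecMulVec_apply] <;>
      field_simp <;> norm_num
  rw [e] at b1
  have dB : (!![-7 / 25, 24 / 25; -24 / 25, -7 / 25] : M2 F).det ≠ 0 := by
    rw [show (!![-7 / 25, 24 / 25; -24 / 25, -7 / 25] : M2 F).det = 1 by
      rw [det_fin_two_of]; field_simp; norm_num]
    exact one_ne_zero
  have dA : (!![ζ, 0; 0, 1] : M2 F).det ≠ 0 := by simpa using z0
  have mB : pg !![-7 / 25, 24 / 25; -24 / 25, -7 / 25] ∈ MM G (QP2 (F := F)) ⊤ :=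
    ⟨_, 1, dB, trivial, rfl, Dm.one, b1⟩
  have mA : pg !![ζ, 0; 0, 1] ∈ MM G (QP2 (F := F)) ⊤ := by
    refine ⟨_, diagonal fun i : Fin 11 => if i = 1 then 1 else ζ ^ (i : ℕ), dA, trivial, rfl,
      ⟨?_, ?_, _, fun i => ?_, rfl⟩, ?_⟩
    · ext i j
      simp only [P2', vc, diagonal_mul, of_apply]
      split_ifs <;> simp_all
    · ext i j
      simp only [P2', vc, mul_diagonal, of_apply, transpose_apply]
      split_ifs <;> simp_all
    · split_ifs <;> simp [z0]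
    · convert h.a using 1
      rw [show (!![ζ, 0; 0, 1] : M2 F) = 1 - (1 - ζ) • vecMulVec ![1, 0] ![1, 0] by
        ext i j; fin_cases i <;> fin_cases j <;> simp, RP.em, ← add_right_inj 1, add_left_comm]
      have := em2 (1 - ζ) 0 1
      rw [RP.em] at this
      rw [this]
      ext i j
      by_cases hi : i = 1 <;> by_cases hj : j = 1 <;>
        simp [C11.mA, vc, vecMulVec_apply, hi, hj, one_apply, diagonal_apply, add_comm,
          @eq_comm _ (1 : Fin 11) j]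
  have t1 : (!![-7 / 25, 24 / 25; -24 / 25, -7 / 25] : M2 F).trace ≠ 0 := by
    rw [trace_fin_two_of]
    intro e
    field_simp at e
    exact mul_ne_zero h2 h7 (by linear_combination -e)
  have t2 : (!![ζ, 0; 0, 1] * !![-7 / 25, 24 / 25; -24 / 25, -7 / 25] -
        !![-7 / 25, 24 / 25; -24 / 25, -7 / 25] * !![ζ, 0; 0, 1] : M2 F).det ≠ 0 := by
    rw [show (!![ζ, 0; 0, 1] * !![-7 / 25, 24 / 25; -24 / 25, -7 / 25] -
        !![-7 / 25, 24 / 25; -24 / 25, -7 / 25] * !![ζ, 0; 0, 1] : M2 F).det =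
        -((ζ - 1) * (24 / 25)) ^ 2 by simp [det_fin_two]; ring]
    exact neg_ne_zero.2 (pow_ne_zero _ (mul_ne_zero z1 (div_ne_zero h24 h25)))
  rcases dk p _ dA dB (by simpa using z2) t1 t2 mA mB with H | ⟨k, L, l1, -⟩
  · have := ord_small H h.prim z0 mA
    omega
  · exact big QP2 l1

end Cfsg.Agent.C11
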