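import Cfsg.Agent.C11.P2
import Cfsg.Agent.C11.Syl

/-! Two opposite transvections generating the field give the whole special linear group. -/

set_option autoImplicit false
open Matrix

namespace Cfsg.Agent.C11

open Cfsg.Agent.H6 Cfsg.Agent.H6.Pg P2
open scoped MatrixGroups

variable {F : Type*} [Field F] {ζ : F} {G : Subgroup (GL (Fin 11) F)} {p : ℕ}

namespace TvA

variable {P : Matrix (Fin 11) (Fin 2) F} {Q : Matrix (Fin 2) (Fin 11) F}

theorem em_up (c : F) (r s : Fin 11) :
    P2.em P Q 1 !![1, c; 0, 1] r s = (1 : Mt F) r s + c * P r 0 * Q 1 s := by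
  simp [P2.em, Matrix.mul_apply, Fin.sum_univ_two]
  ring_nf
  simp

theorem em_lo (c : F) (r s : Fin 11) :
    P2.em P Q 1 !![1, 0; c, 1] r s = (1 : Mt F) r s + c * P r 1 * Q 0 s := by
  simp [P2.em, Matrix.mul_apply, Fin.sum_univ_two]
  ring_nf
  simp

theorem em_dg (a b : F) (r s : Fin 11) : P2.em P Q 1 !![a, 0; 0, b] r s =
    (1 : Mt F) r s + (a - 1) * P r 0 * Q 0 s + (b - 1) * P r 1 * Q 1 s := by
  simp [P2.em, Matrix.mul_apply, Fin.sum_univ_two]
  ring

theorem sl2 (h : Q * P = 1) (hu : ∀ c, In G (P2.em P Q 1 !![1, c; 0, 1]))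
    (hl : ∀ c, In G (P2.em P Q 1 !![1, 0; c, 1])) {a : F} (ha : a ≠ 0) :
    In G (P2.em P Q 1 !![a, 0; 0, a⁻¹]) := by
  have := ((((hu a).mul (hl (-a⁻¹))).mul (hu a)).mul (hu (-1))).mul ((hl 1).mul (hu (-1)))
  simp only [em_mul1 h] at this
  convert this using 2
  ext i j
  fin_cases i <;> fin_cases j <;> simp [ha]

theorem diagcase (h : Q * P = 1) {a : F} (h1 : a ≠ 1) (h2 : a ≠ a⁻¹)
    (hD : (P2.em P Q 1 !![a, 0; 0, a⁻¹]).IsDiag) : ∃ i j, i ≠ j ∧ ∀ c, ∃ c',
      P2.em P Q 1 !![1, c'; 0, 1] = transvection i j c := by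
  have h1' : a⁻¹ ≠ 1 := fun e => h1 (inv_eq_one.1 e)
  obtain ⟨f, hf⟩ : ∃ f, diagonal f = P2.em P Q 1 !![a, 0; 0, a⁻¹] := ⟨_, hD.diagonal_diag⟩
  have e1 : diagonal f * P = P * !![a, 0; 0, a⁻¹] := by
    rw [hf, P2.em, Matrix.add_mul, Matrix.mul_assoc, h, Matrix.mul_sub]
    simp
  have e2 : Q * diagonal f = !![a, 0; 0, a⁻¹] * Q := by
    rw [hf, P2.em, Matrix.mul_add, ← Matrix.mul_assoc, ← Matrix.mul_assoc, h, Matrix.one_mul,
      Matrix.sub_mul]
    simp
  have p0 : ∀ r, f r * P r 0 = P r 0 * a := fun r => by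
    simpa [Matrix.mul_apply, Fin.sum_univ_two, diagonal_apply] using congrFun (congrFun e1 r) 0
  have q1 : ∀ s, Q 1 s * f s = a⁻¹ * Q 1 s := fun s => by
    simpa [Matrix.mul_apply, Fin.sum_univ_two, diagonal_apply] using congrFun (congrFun e2 1) s
  have hi : ∃ i, P i 0 ≠ 0 := by
    by_contra hc
    push Not at hc
    simpa [Matrix.mul_apply, hc] using congrFun (congrFun h 0) 0
  have hj : ∃ j, Q 1 j ≠ 0 := by
    by_contra hc
    push Not at hc
    simpa [Matrix.mul_apply, hc] using congrFun (congrFun h 1) 1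
  obtain ⟨i, hi⟩ := hi
  obtain ⟨j, hj⟩ := hj
  have fi : f i = a := mul_right_cancel₀ hi (by rw [p0, mul_comm])
  have fj : f j = a⁻¹ := mul_left_cancel₀ hj (by rw [q1, mul_comm])
  have qi : Q 1 i = 0 := by
    by_contra e
    exact h2 (mul_left_cancel₀ e (by rw [← fi, q1, fi, mul_comm]))
  have pj : P j 0 = 0 := by
    by_contra e
    exact h2 (mul_left_cancel₀ e (by rw [← p0, fj, mul_comm]))
  have en := fun r s => (congrFun (congrFun hf r) s).trans (em_dg a a⁻¹ r s)
  have a1 : Q 0 i ≠ 0 := fun e => h1 (by simpa [e, qi, fi] using en i i)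
  have a2 : P j 1 ≠ 0 := fun e => h1' (by simpa [e, pj, fj] using en j j)
  have b1 : ∀ r, r ≠ i → P r 0 = 0 := fun r hr => by
    simpa [hr, qi, a1, sub_eq_zero, h1] using en r i
  have b2 : ∀ s, j ≠ s → Q 1 s = 0 := fun s hs => by
    simpa [hs, pj, a2, sub_eq_zero, h1', h1] using en j s
  refine ⟨i, j, fun e => h2 (by rw [← fj, ← e, fi]), fun c => ⟨c / (P i 0 * Q 1 j), ?_⟩⟩
  ext r s
  rw [em_up, transvection, Matrix.add_apply, add_right_inj, single_apply]
  by_cases hr : r = i
  · by_cases hs : j = s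
    · subst hr hs
      simp
      field_simp
    · simp [hs, b2 s hs]
  · simp [b1 r hr, Ne.symm hr]

theorem perm {σ : Fin 11 → Fin 11} (hσ : Function.Injective σ)
    (hM : In G (of fun r s => if r = σ s then 1 else 0)) {i j : Fin 11}
    (h : ∀ c, In G (transvection i j c)) (c : F) : In G (transvection (σ i) (σ j) c) := by
  obtain ⟨M', h1, h2, -⟩ := hM.exists_inv
  have e : (of fun r s => if r = σ s then 1 else 0 : Mt F) * transvection i j c =
      transvection (σ i) (σ j) c * of fun r s => if r = σ s then 1 else 0 := by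
    rw [transvection, transvection, mul_add, add_mul, mul_one, one_mul, add_right_inj]
    ext r s
    by_cases hs : s = j
    · subst hs
      rw [mul_single_apply_same]
      by_cases hr : r = σ i
      · subst hr
        simp
      · rw [single_mul_apply_of_ne _ _ _ _ _ hr]
        simp [hr]
    · rw [mul_single_apply_of_ne _ _ _ _ _ hs]
      by_cases hr : r = σ i
      · subst hr
        simp [hσ.eq_iff, Ne.symm hs]
      · rw [single_mul_apply_of_ne _ _ _ _ _ hr]
  have := (hM.mul (h c)).mul h1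
  rwa [e, mul_assoc, h2, mul_one] at this

theorem all (h : Ctx ζ G) {i j : Fin 11} (hij : i ≠ j) (ht : ∀ c, In G (transvection i j c))
    (k l : Fin 11) (hkl : k ≠ l) : ∀ c, In G (transvection k l c) := by
  have s1 : ∀ (n : ℕ) (i j : Fin 11), (∀ c, In G (transvection i j c)) →
      ∀ c, In G (transvection ((fun x => x + 1)^[n] i) ((fun x => x + 1)^[n] j) c) := fun n => by
    induction n with
    | zero => exact fun _ _ h => h
    | succ n ih =>
      exact fun i j e => ih _ _ (perm (σ := fun x => x + 1) (add_left_injective 1) h.b e)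
  have s2 : ∀ (n : ℕ) (i j : Fin 11), (∀ c, In G (transvection i j c)) →
      ∀ c, In G (transvection ((fun x => 2 * x)^[n] i) ((fun x => 2 * x)^[n] j) c) := fun n => by
    induction n with
    | zero => exact fun _ _ h => h
    | succ n ih => exact fun i j e => ih _ _ (perm (σ := fun x => 2 * x) (by decide) h.m e)
  have t1 : ∀ i j : Fin 11, ∃ n : Fin 11,
      0 = (fun x => x + 1)^[n] i ∧ j - i = (fun x => x + 1)^[n] j := by decide +kernel
  have t2 : ∀ a b : Fin 11, a ≠ 0 → b ≠ 0 → ∃ n : Fin 11,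
      (0 : Fin 11) = (fun x => 2 * x)^[n] 0 ∧ b = (fun x => 2 * x)^[n] a := by decide +kernel
  have t3 : ∀ k l : Fin 11, ∃ n : Fin 11,
      k = (fun x => x + 1)^[n] 0 ∧ l = (fun x => x + 1)^[n] (l - k) := by decide +kernel
  obtain ⟨n1, a1, a2⟩ := t1 i j
  obtain ⟨n2, b1, b2⟩ := t2 (j - i) (l - k) (sub_ne_zero.2 hij.symm) (sub_ne_zero.2 hkl.symm)
  obtain ⟨n3, c1, c2⟩ := t3 k l
  have u1 := s1 n1 _ _ ht
  rw [← a1, ← a2] at u1
  have u2 := s2 n2 _ _ u1
  rw [← b1, ← b2] at u2
  have u3 := s1 n3 _ _ u2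
  rwa [← c1, ← c2] at u3

theorem sl (ht : ∀ k l : Fin 11, k ≠ l → ∀ c, In G (transvection k l c)) : SLle G := by
  have hd : ∀ i : Fin 11, i ≠ 0 → ∀ a : F, a ≠ 0 →
      In G (diagonal fun r => if r = i then a else if r = 0 then a⁻¹ else 1) := fun i hi a ha => by
    have := sl2 (G := G) (P := of fun r k => if r = ![i, 0] k then 1 else 0)
      (Q := of fun k r => if r = ![i, 0] k then 1 else 0) (by
        ext r s
        rw [Matrix.mul_apply, Finset.sum_eq_single (![i, 0] r) (fun b _ hb => by simp [hb])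
          (by simp)]
        fin_cases r <;> fin_cases s <;> simp [hi, hi.symm])
      (fun c => by
        convert ht i 0 hi c using 1
        ext r s
        rw [em_up, transvection, Matrix.add_apply, single_apply]
        by_cases hr : r = i <;> by_cases hs : s = 0 <;> simp [hr, hs, eq_comm, @eq_comm _ i r])
      (fun c => by
        convert ht 0 i hi.symm c using 1
        ext r s
        rw [em_lo, transvection, Matrix.add_apply, single_apply]
        by_cases hr : r = 0 <;> by_cases hs : s = i <;> simp [hr, hs, eq_comm, @eq_comm _ i s]) ha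
    convert this using 1
    ext r s
    rw [em_dg, diagonal_apply, one_apply]
    by_cases e : r = s
    · subst e
      by_cases hr : r = i <;> by_cases hs : r = 0 <;> simp_all
    · by_cases hr : r = i <;> by_cases hs : r = 0 <;> simp_all [eq_comm]
  intro M hM
  refine diagonal_transvection_induction (In G) M (fun D hD => ?_)
    (fun t => ht _ _ t.hij _) fun A B => In.mul
  rw [hM, det_diagonal] at hD
  have h0 : ∀ i, D i ≠ 0 := fun i e => by
    rw [Finset.prod_eq_zero (Finset.mem_univ i) e] at hD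
    exact zero_ne_one hD
  have ind : ∀ s : Finset (Fin 11), 0 ∉ s → In G (diagonal fun r =>
      if r ∈ s then D r else if r = 0 then (∏ k ∈ s, D k)⁻¹ else 1) := fun s => by
    induction s using Finset.induction_on with
    | empty => exact fun _ => by simpa using In.one
    | insert a s ha ih =>
      intro h
      rw [Finset.mem_insert, not_or] at h
      have := (hd a (Ne.symm h.1) _ (h0 a)).mul (ih h.2)
      rw [diagonal_mul_diagonal] at this
      convert this using 2
      funext r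
      rw [Finset.prod_insert ha]
      by_cases e1 : r = a
      · subst e1
        simp [ha, Ne.symm h.1]
      · by_cases e2 : r = 0
        · subst e2
          simp [e1, h.2, mul_comm]
        · simp [e1, e2]
  convert ind (Finset.univ.erase 0) (by simp) using 2
  funext r
  by_cases e : r = 0
  · subst e
    rw [← Finset.mul_prod_erase _ _ (Finset.mem_univ 0)] at hD
    simp [eq_inv_of_mul_eq_one_left hD]
  · simp [e]

theorem sub_top [Fintype F] [Fact p.Prime] [CharP F p] (hF : Fintype.card F = p ^ 5)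
    {L : Subfield F} {x : F} (hx : x ∈ L) (h : x ^ p ≠ x) : L = ⊤ := by
  classical
  obtain ⟨m, hp, hm⟩ := FiniteField.card L p
  have e := Module.card_eq_pow_finrank (K := L) (V := F)
  rw [hF, hm, ← pow_mul] at e
  have e1 := Nat.pow_right_injective hp.two_le e
  rcases (Nat.dvd_prime Nat.prime_five).1 ⟨_, e1⟩ with e2 | e2
  · rw [e2, pow_one] at hm
    have := FiniteField.pow_card (⟨x, hx⟩ : L)
    rw [hm] at this
    exact absurd (congrArg Subtype.val this) h
  · have : L.toAddSubgroup = ⊤ := AddSubgroup.eq_top_of_card_eq _ (by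
      rw [Nat.card_eq_fintype_card (α := F), hF, ← e2, ← hm, ← Nat.card_eq_fintype_card]
      rfl)
    exact eq_top_iff.2 fun y _ => (this ▸ trivial : y ∈ L.toAddSubgroup)

theorem small [Fintype F] (hF : FH F p) (hp : p ≠ 2) {x : F}
    (hl : Fintype.card F = p ∨ x ^ p ≠ x)
    (h1 : (4 : F) = 0 ∨ (4 : F) = 1 ∨ (4 : F) = 2 ∨ (4 : F) ^ 2 - 3 * 4 + 1 = 0)
    (h2 : (2 + x) ^ 2 = 0 ∨ (2 + x) ^ 2 = 1 ∨ (2 + x) ^ 2 = 2 ∨
      ((2 + x) ^ 2) ^ 2 - 3 * (2 + x) ^ 2 + 1 = 0) : False := by
  have := hF.2.1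
  have n2 : (2 : F) ≠ 0 := by exact_mod_cast nz hF Nat.prime_two (by omega)
  by_cases p3 : p = 3
  · subst p3
    have c3 : (3 : F) = 0 := by exact_mod_cast CharP.cast_eq_zero F 3
    have hc : Fintype.card F = 243 := by
      rcases hF.2.2 with h | h <;> omega
    have hx := hl.resolve_left (by omega)
    have sq : ∀ s : F, s ^ 2 ≠ -1 := fun s e => by
      have s0 : s ≠ 0 := by rintro rfl; simp at e
      have := FiniteField.pow_card_sub_one_eq_one s s0
      rw [hc, show 243 - 1 = 2 * 121 by norm_num, pow_mul, e] at this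
      exact n2 (by linear_combination -this)
    rcases h2 with e | e | e | e
    · have := pow_eq_zero_iff (two_ne_zero) |>.1 e
      exact hx (by linear_combination (x ^ 2 + x) * this - (x ^ 2 + x) * c3)
    · exact hx (by linear_combination (x - 1) * e - (x ^ 2 - 1) * c3)
    · exact sq (2 + x) (by linear_combination e + c3)
    · exact sq ((2 + x) ^ 2) (by linear_combination e + (2 + x) ^ 2 * c3)
  by_cases p5 : p = 5
  · subst p5
    have c5 : (5 : F) = 0 := by exact_mod_cast CharP.cast_eq_zero F 5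
    have hc : Fintype.card F = 3125 := by
      rcases hF.2.2 with h | h <;> omega
    have hx := hl.resolve_left (by omega)
    have f5 : x ^ 5 - x = x * (x + 1) * (x + 2) * (x + 3) * (x + 4) := by
      linear_combination (-2 * x ^ 4 - 7 * x ^ 3 - 10 * x ^ 2 - 5 * x) * c5
    rcases h2 with e | e | e | e
    · have := pow_eq_zero_iff (two_ne_zero) |>.1 e
      exact hx (by linear_combination f5 + x * (x + 1) * (x + 3) * (x + 4) * this)
    · exact hx (by linear_combination f5 + x * (x + 2) * (x + 4) * e)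
    · have s0 : 2 + x ≠ 0 := fun e' => n2 (by rw [← e, e']; simp)
      have := FiniteField.pow_card_sub_one_eq_one _ s0
      have e4 : (2 : F) ^ 4 = 1 := by linear_combination 3 * c5
      rw [hc, show 3125 - 1 = 2 * (4 * 390 + 2) by norm_num, pow_mul, e, pow_add, pow_mul, e4,
        one_pow] at this
      exact cop (F := F) (a := 3) (b := 5) (by norm_num) (by push_cast; linear_combination this)
        (by exact_mod_cast c5)
    · have : ((2 + x) ^ 2 - 4) ^ 2 = 0 := by linear_combination e - ((2 + x) ^ 2 - 3) * c5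
      have := pow_eq_zero_iff (two_ne_zero) |>.1 this
      exact hx (by linear_combination f5 + (x + 1) * (x + 2) * (x + 3) * this)
  have n3 : (3 : F) ≠ 0 := by exact_mod_cast nzp (F := F) hF.1 Nat.prime_three p3
  have n5 : (5 : F) ≠ 0 := by exact_mod_cast nzp (F := F) hF.1 Nat.prime_five p5
  rcases h1 with e | e | e | e
  · exact mul_ne_zero n2 n2 (by linear_combination e)
  · exact n3 (by linear_combination e)
  · exact n2 (by linear_combination e)
  · exact n5 (by linear_combination e)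

/-- all of `SL₂` on a block gives everything -/
theorem of_block [Fintype F] (h : Ctx ζ G) (hQ : Q * P = 1)
    (hu : ∀ c, In G (P2.em P Q 1 !![1, c; 0, 1])) (hl : ∀ c, In G (P2.em P Q 1 !![1, 0; c, 1])) :
    SLle G := by
  have z0 : ζ ≠ 0 := h.prim.ne_zero (by norm_num)
  have z7 := h.prim.pow_eq_one
  have hk : 2 ≤ Module.finrank F (LinearMap.ker Q.mulVecLin) := by
    have h1 := LinearMap.finrank_range_add_finrank_ker Q.mulVecLin
    have h2 := Submodule.finrank_le (LinearMap.range Q.mulVecLin)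
    simp only [Module.finrank_fintype_fun_eq_card, Fintype.card_fin] at h1 h2
    omega
  obtain ⟨f, hf⟩ := exists_linearIndependent_of_le_finrank hk
  have fx : ∀ u : LinearMap.ker Q.mulVecLin, P2.em P Q 1 !![ζ, 0; 0, ζ⁻¹] *ᵥ u.1 = u.1 := fun u => by
    have : Q *ᵥ u.1 = 0 := u.2
    rw [P2.em, add_mulVec, one_mulVec, ← mulVec_mulVec, this, mulVec_zero, add_zero]
  obtain ⟨n, n', h1, h2, h3⟩ := syl h (sl2 hQ hu hl z0) (by
      rw [(em_pow hQ (Matrix.one_mul _) (Matrix.mul_one _) _ _).1, one_pow]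
      have : (!![ζ, 0; 0, ζ⁻¹] : M2 F) ^ 11 = 1 := by
        rw [show (!![ζ, 0; 0, ζ⁻¹] : M2 F) = diagonal ![ζ, ζ⁻¹] by
          ext i j; fin_cases i <;> fin_cases j <;> simp, diagonal_pow, ← diagonal_one]
        congr 1
        funext i
        fin_cases i <;> simp [z7]
      rw [this, em_one]) (u := (f 0).1) (v := (f 1).1) (by
      have e : ![(f 0).1, (f 1).1] = (LinearMap.ker Q.mulVecLin).subtype ∘ f := by
        funext i
        fin_cases i <;> rfl
      rw [e]
      exact hf.map' _ (Submodule.ker_subtype _)) (fx _) (fx _)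
  have h4 : n' * n = 1 := mul_eq_one_comm.1 h2
  have e : ∀ A, n * P2.em P Q 1 A * n' = P2.em (n * P) (Q * n') 1 A := fun A => by
    rw [P2.em, P2.em, mul_add, add_mul, mul_one, h2]
    simp only [Matrix.mul_assoc]
  rw [e] at h3
  obtain ⟨i, j, hij, H⟩ := diagcase (by
    rw [Matrix.mul_assoc, ← Matrix.mul_assoc n', h4, Matrix.one_mul, hQ])
    (h.prim.ne_one (by norm_num)) (fun e => h.prim.pow_ne_one_of_pos_of_lt (l := 2) (by norm_num)
      (by norm_num) (by rw [_root_.sq]; nth_rewrite 2 [e]; exact mul_inv_cancel₀ z0)) h3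
  refine sl (all h hij fun c => ?_)
  obtain ⟨c', hc⟩ := H c
  rw [← hc, ← e]
  exact (h1.mul (hu c')).mul (h1.inv h2)

end TvA

open TvA in
theorem tvA [Fintype F] (hF : FH F p) (hp : p ≠ 2) (h : Ctx ζ G) {v φ v' φ' : Fin 11 → F}
    (h1 : Tr G v φ) (h2 : Tr G v' φ') (h0 : (φ ⬝ᵥ v') * (φ' ⬝ᵥ v) ≠ 0)
    (hl : Fintype.card F = p ∨ ((φ ⬝ᵥ v') * (φ' ⬝ᵥ v)) ^ p ≠ (φ ⬝ᵥ v') * (φ' ⬝ᵥ v)) : SLle G := by
  have := Fact.mk hF.1
  have := hF.2.1
  have n2 : (2 : F) ≠ 0 := by exact_mod_cast nz hF Nat.prime_two (by omega)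
  obtain ⟨ha, hb⟩ := mul_ne_zero_iff.1 h0
  have a1 := h1.1
  have a2 := h2.1
  set α := φ ⬝ᵥ v' with hα
  set β := φ' ⬝ᵥ v with hβ
  let P : Matrix (Fin 11) (Fin 2) F := of fun r k => ![v, v'] k r
  let Q : Matrix (Fin 2) (Fin 11) F := of ![β⁻¹ • φ', α⁻¹ • φ]
  have hQ : Q * P = 1 := by
    ext i j
    simp only [dotProduct] at a1 a2 hα hβ
    fin_cases i <;> fin_cases j <;>
      simp [P, Q, Matrix.mul_apply, mul_assoc, ← Finset.mul_sum, a1, a2, ← hα, ← hβ, ha, hb]
  have mA : pg !![1, α; 0, 1] ∈ MM G hQ ⊤ := ⟨_, 1, by simp, trivial, rfl, Dm.one, by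
    convert h1.2 using 1
    ext r s
    rw [em_up]
    simp [P, Q, vecMulVec_apply]
    field_simp⟩
  have mB : pg !![1, 0; β, 1] ∈ MM G hQ ⊤ := ⟨_, 1, by simp, trivial, rfl, Dm.one, by
    convert h2.2 using 1
    ext r s
    rw [em_lo]
    simp [P, Q, vecMulVec_apply]
    field_simp⟩
  rcases dk p _ (by simp) (by simp) (by simpa [one_add_one_eq_two] using n2)
    (by simpa [one_add_one_eq_two] using n2) (by simp [det_fin_two, ha, hb]) mA mB with
    H | ⟨k, L, hL, hL'⟩
  · exfalso
    have m := mul_mem mA mB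
    rw [pg_mul (by simp) (by simp)] at m
    refine small hF hp hl (tau_small H (t := 4) (by simp) (by simpa using ha) mA (by simp; norm_num))
      (tau_small H (by rw [det_mul]; simp) (by simpa using ha) m ?_)
    rw [det_mul]
    simp
    ring
  have tm : ∀ g ∈ MM G hQ ⊤, tau g ∈ L := fun g hg => by
    rw [← tau_conj k]
    exact tau_mem (hL' (conj_mem_cj.2 hg))
  have t1 := tm _ (mul_mem mA mB)
  have t2 := tm _ (mul_mem mA (mul_mem mA mB))
  rw [pg_mul (by simp) (by simp)] at t1 t2
  rw [pg_mul (by simp) (by rw [det_mul]; simp)] at t2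
  rw [tau_pg (by simp only [det_mul]; simp)] at t1 t2
  simp only [det_mul] at t1 t2
  simp at t1 t2
  have t3 : α * β ∈ L := by
    have := L.div_mem (L.sub_mem (L.sub_mem (L.mul_mem (ofNat_mem L 4) t1) t2) (ofNat_mem L 12))
      (ofNat_mem L 8)
    convert this using 1
    have : (8 : F) ≠ 0 := by
      rw [show (8 : F) = 2 ^ 3 by norm_num]; exact pow_ne_zero _ n2
    field_simp
    ring
  have hT : L = ⊤ := by
    rcases hl with e | e
    · exact H7.Dick.eq_top_of_prime (e ▸ hF.1) L
    · rcases hF.2.2 with ⟨e', -⟩ | ⟨e', -⟩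
      · exact H7.Dick.eq_top_of_prime (e' ▸ hF.1) L
      · exact sub_top e' t3 e
  subst hT
  have hS := S_le_of_top hL
  refine of_block h hQ (fun c => ?_) fun c => ?_
  · have e : ∀ i j : Fin 2, (1 + !![0, -c; 0, 0] : M2 F) i j = !![1, -c; 0, 1] i j := fun i j => by
      fin_cases i <;> fin_cases j <;> simp
    have e := Matrix.ext e
    convert unip hQ (N := !![0, -c; 0, 0]) (by
      ext i j; fin_cases i <;> fin_cases j <;> simp [Matrix.mul_apply]) (by simp [e])
      (hS (mem_S.2 ⟨_, by simp [e], rfl⟩)) using 2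
    ext i j
    fin_cases i <;> fin_cases j <;> simp
  · have e : ∀ i j : Fin 2, (1 + !![0, 0; -c, 0] : M2 F) i j = !![1, 0; -c, 1] i j := fun i j => by
      fin_cases i <;> fin_cases j <;> simp
    have e := Matrix.ext e
    convert unip hQ (N := !![0, 0; -c, 0]) (by
      ext i j; fin_cases i <;> fin_cases j <;> simp [Matrix.mul_apply]) (by simp [e])
      (hS (mem_S.2 ⟨_, by simp [e], rfl⟩)) using 2
    ext i j
    fin_cases i <;> fin_cases j <;> simp

end Cfsg.Agent.C11
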